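import Cfsg.Agent.Lib.Chev.Om.Conc
import Cfsg.Agent.Lib.Chev.Tab.B2

/-! The tables of the natural module of type B₂. -/

set_option autoImplicit false
set_option maxRecDepth 1000000

namespace Cfsg.Agent.Lib.Chev.Om

open Cfsg Cfsg.Lie

/-- The tables of the natural module of type B₂. -/
def mtB2 : MT where
  dim := 5
  bet a b :=
    if a = 0 ∧ b = 0 then 2
    else if a < 5 ∧ b < 5 ∧ 0 < a ∧ 0 < b ∧ (a + 2 = b ∨ b + 2 = a) then 1 else 0
  kap a := if a = 0 then 1 else 0
  xx r := [3, 3, 4, 3, 1, 2, 1, 1].getD r 1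
  yy r := [4, 0, 0, 2, 4, 0, 0, 2].getD r 1
  ss r := [1, 1, 1, 1, -1, -1, -1, -1].getD r 0

theorem b2c1 : chkX 8 mtB2 = true := by decide +kernel
theorem b2c2 : chkR2 TabB2.fd.tbl mtB2 = true := by decide +kernel
theorem b2c3 : chkR3 TabB2.fd.tbl mtB2 = true := by decide +kernel
theorem b2c4 : chkRange 8 mtB2 = true := by decide +kernel
theorem b2c5 : chkGen 8 mtB2 = true := by decide +kernel

end Cfsg.Agent.Lib.Chev.Om
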