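import Cfsg.Agent.Lib.Chev.Om.B2T

/-! The quadratic space of type B₂: coordinates, root data, hyperbolic system. -/

set_option autoImplicit false
set_option linter.unusedSimpArgs false
set_option linter.unusedVariables false
set_option linter.unusedSectionVars false

namespace Cfsg.Agent.Lib.Chev.Om

open Cfsg Cfsg.Lie

variable {F : Type*} [Field F]

/-- The polar form of type B₂. -/
def bB2 (u v : Unit ⊕ (Fin 2 ⊕ Fin 2) → F) : F :=
  2 * (u (.inl ()) * v (.inl ())) +
    ∑ i : Fin 2, (u (.inr (.inl i)) * v (.inr (.inr i)) + v (.inr (.inl i)) * u (.inr (.inr i)))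

theorem qsB2 : QSys (quadFormOdd 2 F) (bB2 (F := F)) where
  add x y := by
    simp only [quadFormOdd, bB2, Fin.sum_univ_two, Pi.add_apply]
    ring
  smulQ c x := by
    simp only [quadFormOdd, Fin.sum_univ_two, Pi.smul_apply, smul_eq_mul]
    ring
  symm x y := by
    simp only [bB2, Fin.sum_univ_two]
    ring
  addB x y z := by
    simp only [bB2, Fin.sum_univ_two, Pi.add_apply]
    ring
  smulB c x y := by
    simp only [bB2, Fin.sum_univ_two, Pi.smul_apply, smul_eq_mul]
    ring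

/-- The dual coordinate. -/
def swB2 : Unit ⊕ (Fin 2 ⊕ Fin 2) → Unit ⊕ (Fin 2 ⊕ Fin 2)
  | .inl _ => .inl ()
  | .inr (.inl i) => .inr (.inr i)
  | .inr (.inr i) => .inr (.inl i)

/-- The coordinate of a code. -/
def decB2 (k : ℕ) : Unit ⊕ (Fin 2 ⊕ Fin 2) :=
  if k = 0 then .inl () else if k < 3 then .inr (.inl (Fin.ofNat 2 (k - 1))) else .inr (.inr (Fin.ofNat 2 (k - 3)))

/-- The basis vector of a code. -/
noncomputable def basB2 (F : Type*) [Field F] (k : ℕ) : Unit ⊕ (Fin 2 ⊕ Fin 2) → F :=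
  if k < 5 then Pi.single (decB2 k) 1 else 0

theorem bB2_single0 (v : Unit ⊕ (Fin 2 ⊕ Fin 2) → F) : bB2 (Pi.single (.inl ()) 1) v = 2 * v (.inl ()) := by
  simp [bB2, Fin.sum_univ_two, Pi.single_apply]

theorem bB2_single1 (i : Fin 2) (v : Unit ⊕ (Fin 2 ⊕ Fin 2) → F) :
    bB2 (Pi.single (.inr (.inl i)) 1) v = v (.inr (.inr i)) := by
  fin_cases i <;> simp [bB2, Fin.sum_univ_two, Pi.single_apply]

theorem bB2_single2 (i : Fin 2) (v : Unit ⊕ (Fin 2 ⊕ Fin 2) → F) :
    bB2 (Pi.single (.inr (.inr i)) 1) v = v (.inr (.inl i)) := by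
  fin_cases i <;> simp [bB2, Fin.sum_univ_two, Pi.single_apply]

/-- Formula for the polar form with a basis vector of norm `0`. -/
theorem bB2_iso {x : ℕ} (hx : x < 5) (h0 : x ≠ 0) (v : Unit ⊕ (Fin 2 ⊕ Fin 2) → F) :
    bB2 (basB2 F x) v = v (swB2 (decB2 x)) := by
  unfold basB2
  rw [if_pos hx]
  interval_cases x
  · exact absurd rfl h0
  · exact bB2_single1 0 v
  · exact bB2_single1 1 v
  · exact bB2_single2 0 v
  · exact bB2_single2 1 v

theorem repB2 : Rep (quadFormOdd 2 F) bB2 mtB2 (basB2 F) where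
  hB a b := by
    by_cases ha : a < 5
    · by_cases hb : b < 5
      · have e : ∀ a, a < 5 → ∀ b, b < 5 → bB2 (basB2 F a) (basB2 F b) = ((mtB2.bet a b : ℤ) : F) := by
          intro a ha b hb
          interval_cases a <;> interval_cases b <;>
            simp [basB2, decB2, bB2, Fin.sum_univ_two, Pi.single_apply, mtB2]
        exact e a ha b hb
      · have e : mtB2.bet a b = 0 := by
          show (if a = 0 ∧ b = 0 then (2 : ℤ)
            else if a < 5 ∧ b < 5 ∧ 0 < a ∧ 0 < b ∧ (a + 2 = b ∨ b + 2 = a) then 1 else 0) = _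
          have h1 : ¬ (a = 0 ∧ b = 0) := by omega
          simp [hb, h1]
        unfold basB2
        rw [if_neg hb, e, qsB2.zeroB']
        simp
    · have e : mtB2.bet a b = 0 := by
        show (if a = 0 ∧ b = 0 then (2 : ℤ)
            else if a < 5 ∧ b < 5 ∧ 0 < a ∧ 0 < b ∧ (a + 2 = b ∨ b + 2 = a) then 1 else 0) = _
        have h1 : ¬ (a = 0 ∧ b = 0) := by omega
        simp [ha, h1]
      unfold basB2
      rw [if_neg ha, e, qsB2.zeroB]
      simp
  hQ a := by
    by_cases ha : a < 5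
    · interval_cases a <;> simp [basB2, decB2, quadFormOdd, Fin.sum_univ_two, Pi.single_apply, mtB2]
    · have e : mtB2.kap a = 0 := by
        show (if a = 0 then (1 : ℤ) else 0) = _
        have h1 : a ≠ 0 := by omega
        simp [h1]
      unfold basB2
      rw [if_neg ha, e, qsB2.Q_zero]
      simp

/-- The abstract isometry group of type B₂. -/
noncomputable abbrev gB2 (F : Type*) [Field F] :
    OGp (quadFormOdd 2 F) bB2 ↥(isometryGroup F (quadFormOdd 2 F)) :=
  mkOGp qsB2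

theorem single_basB2 (x : Unit ⊕ (Fin 2 ⊕ Fin 2)) : ∃ k, k < 5 ∧ decB2 k = x ∧ (basB2 F k) = Pi.single x 1 := by
  have h : ∀ x : Unit ⊕ (Fin 2 ⊕ Fin 2), ∃ k, k < 5 ∧ decB2 k = x := by decide
  obtain ⟨k, hk, rfl⟩ := h x
  refine ⟨k, hk, rfl, ?_⟩
  unfold basB2
  rw [if_pos hk]

theorem extB2 (g h : ↥(isometryGroup F (quadFormOdd 2 F)))
    (H : ∀ k, k < mtB2.dim → (gB2 F).act g (basB2 F k) = (gB2 F).act h (basB2 F k)) : g = h := by
  apply act_ext_single (gB2 F)
  intro x
  obtain ⟨k, hk, _, e⟩ := single_basB2 (F := F) x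
  rw [← e]
  exact H k hk

theorem sumB2 (w : Unit ⊕ (Fin 2 ⊕ Fin 2) → F) : w = ∑ a ∈ Finset.range 5, w (decB2 a) • basB2 F a := by
  funext x
  rw [Finset.sum_apply]
  have h1 : ∀ a ∈ Finset.range 5, (w (decB2 a) • basB2 F a) x = if decB2 a = x then w x else 0 := by
    intro a ha
    have ha' : a < 5 := Finset.mem_range.mp ha
    unfold basB2
    rw [if_pos ha', Pi.smul_apply, Pi.single_apply]
    by_cases h : decB2 a = x
    · subst h
      simp
    · rw [if_neg (Ne.symm h), if_neg h]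
      simp
  rw [Finset.sum_congr rfl h1]
  have h2 : ∀ x : Unit ⊕ (Fin 2 ⊕ Fin 2), ∃ k, k < 5 ∧ decB2 k = x ∧ ∀ a, a < 5 → decB2 a = x → a = k := by decide
  obtain ⟨k, hk, e, hu⟩ := h2 x
  rw [Finset.sum_eq_single k]
  · rw [if_pos e]
  · intro b hb hbk
    rw [if_neg]
    intro h3
    exact hbk (hu b (Finset.mem_range.mp hb) h3)
  · intro h3
    exact absurd (Finset.mem_range.mpr hk) h3

theorem bet_eeB2 : ∀ i, i < 2 → ∀ j, j < 2 → mtB2.bet (i + 1) (j + 1) = 0 := by decide
theorem bet_ffB2 : ∀ i, i < 2 → ∀ j, j < 2 → mtB2.bet (i + 3) (j + 3) = 0 := by decide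
theorem bet_efB2 : ∀ i, i < 2 → ∀ j, j < 2 → mtB2.bet (i + 1) (j + 3) = if i = j then 1 else 0 := by decide
theorem kap_e : ∀ i, i < 2 → mtB2.kap (i + 1) = 0 := by decide
theorem kap_f : ∀ i, i < 2 → mtB2.kap (i + 3) = 0 := by decide

theorem hsB2 : HSys (quadFormOdd 2 F) bB2 2 (fun i => basB2 F (i + 1)) (fun i => basB2 F (i + 3)) where
  Qe i hi := by
    rw [repB2.hQ, kap_e i hi]
    simp
  Qf i hi := by
    rw [repB2.hQ, kap_f i hi]
    simp
  Bee i j hi hj := by
    rw [repB2.hB, bet_eeB2 i hi j hj]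
    simp
  Bff i j hi hj := by
    rw [repB2.hB, bet_ffB2 i hi j hj]
    simp
  Bef i j hi hj := by
    rw [repB2.hB, bet_efB2 i hi j hj]
    split_ifs <;> simp
  aniso v hQ h := by
    have e1 : ∀ i : Fin 2, decB2 (i.val + 1) = .inr (.inl i) := by decide
    have e2 : ∀ i : Fin 2, decB2 (i.val + 3) = .inr (.inr i) := by decide
    have h1 : ∀ i : Fin 2, v (.inr (.inr i)) = 0 := by
      intro i
      have h3 := (h i.val i.isLt).1
      rw [bB2_iso (by omega) (by omega), e1] at h3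
      exact h3
    have h2 : ∀ i : Fin 2, v (.inr (.inl i)) = 0 := by
      intro i
      have h3 := (h i.val i.isLt).2
      rw [bB2_iso (by omega) (by omega), e2] at h3
      exact h3
    have h0 : v (.inl ()) = 0 := by
      unfold quadFormOdd at hQ
      rw [Finset.sum_eq_zero (fun i _ => by rw [h1 i, mul_zero]), add_zero] at hQ
      exact pow_eq_zero_iff (two_ne_zero) |>.mp hQ
    funext x
    rcases x with ⟨⟩ | i | i
    · exact h0
    · exact h2 i
    · exact h1 i

/-- Every Siegel transformation attached to an isotropic basis vector lies in `E`. -/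
theorem hSgB2 {x : ℕ} (hx : x < 5) (h0 : x ≠ 0) {w : Unit ⊕ (Fin 2 ⊕ Fin 2) → F} (h : bB2 (basB2 F x) w = 0) :
    (gB2 F).Sg (basB2 F x) w ∈ (gB2 F).EE 5 (basB2 F) := by
  have h1 : quadFormOdd 2 F (basB2 F x) = 0 := by
    rw [repB2.hQ]
    have : mtB2.kap x = 0 := by
      show (if x = 0 then (1 : ℤ) else 0) = _
      simp [h0]
    rw [this]
    simp
  have h2 := ((gB2 F).Sg_sum_mem hx h1 (fun a => w (decB2 a)) (Finset.range 5)
    (fun a ha => Finset.mem_range.mp ha) ?_).1
  · rwa [← sumB2 w] at h2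
  · intro a ha
    have ha' : a < 5 := Finset.mem_range.mp ha
    rw [bB2_iso hx h0] at h
    by_cases h3 : swB2 (decB2 x) = decB2 a
    · left
      show w (decB2 a) = 0
      rwa [← h3]
    · right
      rw [bB2_iso hx h0]
      unfold basB2
      rw [if_pos ha', Pi.single_apply, if_neg h3]

end Cfsg.Agent.Lib.Chev.Om
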