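import Cfsg.Agent.Lib.Chev.Om.D4a

/-! Type D₄: the quotient of the isometry group by `E` is abelian. -/

set_option autoImplicit false
set_option linter.unusedSimpArgs false
set_option linter.unusedVariables false
set_option linter.unusedSectionVars false
set_option maxRecDepth 100000

namespace Cfsg.Agent.Lib.Chev.Om

open Cfsg Cfsg.Lie

variable {F : Type*} [Field F]

section Hyp

variable {V : Type*} [AddCommGroup V] [Module F V] {Q : V → F} {B : V → V → F} (S : QSys Q B)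
include S

theorem Q_hyp {e f : V} (he : Q e = 0) (hf : Q f = 0) (hef : B e f = 1) : Q (e - f) = -1 := by
  rw [sub_eq_add_neg, S.add, S.Q_neg, he, hf, S.negB', hef]
  ring

theorem reflF_hyp_e {e f : V} (he : Q e = 0) (hf : Q f = 0) (hef : B e f = 1) : reflF Q B (e - f) e = f := by
  have hee : B e e = 0 := by rw [S.self, he, mul_zero]
  unfold reflF
  rw [Q_hyp S he hf hef, S.subB', hee, hef]
  simp

theorem reflF_hyp_f {e f : V} (he : Q e = 0) (hf : Q f = 0) (hef : B e f = 1) : reflF Q B (e - f) f = e := by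
  have hff : B f f = 0 := by rw [S.self, hf, mul_zero]
  have hfe : B f e = 1 := by rw [S.symm, hef]
  unfold reflF
  rw [Q_hyp S he hf hef, S.subB', hff, hfe]
  simp

theorem reflF_fix' {w x : V} (h : B x w = 0) : reflF Q B w x = x := by
  unfold reflF
  rw [h]
  simp

theorem rotF_one (e f v : V) : rotF B e f 1 v = v := by
  unfold rotF
  simp

end Hyp

/-- `e₃` -/
noncomputable abbrev e3D4 (F : Type*) [Field F] : Fin 4 ⊕ Fin 4 → F := basD4 F 3
/-- `f₃` -/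
noncomputable abbrev f3D4 (F : Type*) [Field F] : Fin 4 ⊕ Fin 4 → F := basD4 F 7

theorem Qe3 : quadFormPlus 4 F (e3D4 F) = 0 := hsD4.Qe 3 (by norm_num)
theorem Qf3 : quadFormPlus 4 F (f3D4 F) = 0 := hsD4.Qf 3 (by norm_num)
theorem Bef3 : bD4 (e3D4 F) (f3D4 F) = 1 := by
  have h := hsD4 (F := F).Bef 3 3 (by norm_num) (by norm_num)
  simpa using h

theorem bet_fixD4 : ∀ k, k < 8 → k ≠ 3 → k ≠ 7 → mtD4.bet k 3 = 0 ∧ mtD4.bet k 7 = 0 := by decide

theorem B_fixD4 {k : ℕ} (hk : k < 8) (h3 : k ≠ 3) (h7 : k ≠ 7) :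
    bD4 (basD4 F k) (e3D4 F) = 0 ∧ bD4 (basD4 F k) (f3D4 F) = 0 := by
  obtain ⟨h1, h2⟩ := bet_fixD4 k hk h3 h7
  constructor
  · rw [repD4.hB, h1]
    simp
  · rw [repD4.hB, h2]
    simp

theorem rot_fixD4 {k : ℕ} (hk : k < 8) (h3 : k ≠ 3) (h7 : k ≠ 7) (a : F) :
    rotF bD4 (e3D4 F) (f3D4 F) a (basD4 F k) = basD4 F k :=
  rotF_fix qsD4 (B_fixD4 hk h3 h7).1 (B_fixD4 hk h3 h7).2

theorem rot_eD4 (a : F) : rotF bD4 (e3D4 F) (f3D4 F) a (basD4 F 3) = a • basD4 F 3 :=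
  rotF_e qsD4 Qe3 Qf3 Bef3

theorem rot_fD4 (a : F) : rotF bD4 (e3D4 F) (f3D4 F) a (basD4 F 7) = a⁻¹ • basD4 F 7 :=
  rotF_f qsD4 Qe3 Qf3 Bef3

theorem refl_fixD4 {k : ℕ} (hk : k < 8) (h3 : k ≠ 3) (h7 : k ≠ 7) :
    reflF (quadFormPlus 4 F) bD4 (e3D4 F - f3D4 F) (basD4 F k) = basD4 F k := by
  apply reflF_fix' qsD4
  rw [qsD4.subB', (B_fixD4 hk h3 h7).1, (B_fixD4 hk h3 h7).2, sub_zero]

theorem refl_eD4 : reflF (quadFormPlus 4 F) bD4 (e3D4 F - f3D4 F) (basD4 F 3) = basD4 F 7 :=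
  reflF_hyp_e qsD4 Qe3 Qf3 Bef3

theorem refl_fD4 : reflF (quadFormPlus 4 F) bD4 (e3D4 F - f3D4 F) (basD4 F 7) = basD4 F 3 :=
  reflF_hyp_f qsD4 Qe3 Qf3 Bef3

theorem Q_ne_D4 : quadFormPlus 4 F (e3D4 F - f3D4 F) ≠ 0 := by
  rw [Q_hyp qsD4 Qe3 Qf3 Bef3]
  simp

/-- The complement of `E`. -/
def TD4 (F : Type*) [Field F] : Set ↥(isometryGroup F (quadFormPlus 4 F)) :=
  {g | (∃ a : F, a ≠ 0 ∧ ∀ v, (gD4 F).act g v = rotF bD4 (e3D4 F) (f3D4 F) a v) ∨
    (∀ v, (gD4 F).act g v = reflF (quadFormPlus 4 F) bD4 (e3D4 F - f3D4 F) v)}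

theorem TD4_inv : ∀ t ∈ TD4 F, t⁻¹ ∈ TD4 F := by
  rintro t (⟨a, ha, h⟩ | h)
  · left
    refine ⟨a⁻¹, inv_ne_zero ha, fun v => ?_⟩
    have e : (gD4 F).act t (rotF bD4 (e3D4 F) (f3D4 F) a⁻¹ v) = v := by
      rw [h, rotF_rotF qsD4 Qe3 Qf3 Bef3, mul_inv_cancel₀ ha, rotF_one qsD4]
    conv_lhs => rw [← e]
    rw [(gD4 F).act_inv_act]
  · right
    intro v
    have e : (gD4 F).act t (reflF (quadFormPlus 4 F) bD4 (e3D4 F - f3D4 F) v) = v := by
      rw [h, reflF_reflF qsD4 Q_ne_D4]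
    conv_lhs => rw [← e]
    rw [(gD4 F).act_inv_act]

theorem TD4_col : ∀ t ∈ TD4 F, ∀ k, k < 8 → ∃ (l : F) (k' : ℕ), l ≠ 0 ∧ k' < 8 ∧ (gD4 F).act t (basD4 F k) = l • basD4 F k' := by
  rintro t (⟨a, ha, h⟩ | h) k hk
  · rw [h]
    by_cases h3 : k = 3
    · subst h3
      exact ⟨a, 3, ha, by norm_num, rot_eD4 a⟩
    by_cases h7 : k = 7
    · subst h7
      exact ⟨a⁻¹, 7, inv_ne_zero ha, by norm_num, rot_fD4 a⟩
    · exact ⟨1, k, one_ne_zero, hk, by rw [one_smul]; exact rot_fixD4 hk h3 h7 a⟩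
  · rw [h]
    by_cases h3 : k = 3
    · subst h3
      exact ⟨1, 7, one_ne_zero, by norm_num, by rw [one_smul]; exact refl_eD4⟩
    by_cases h7 : k = 7
    · subst h7
      exact ⟨1, 3, one_ne_zero, by norm_num, by rw [one_smul]; exact refl_fD4⟩
    · exact ⟨1, k, one_ne_zero, hk, by rw [one_smul]; exact refl_fixD4 hk h3 h7⟩

/-- `E` and the complement generate the isometry group. -/
theorem topD4 : (gD4 F).EE 8 (basD4 F) ⊔ Subgroup.closure (TD4 F) = ⊤ := by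
  have hS : ∀ k w, k < 4 →
      (bD4 (basD4 F k) w = 0 → (gD4 F).Sg (basD4 F k) w ∈ (gD4 F).EE 8 (basD4 F) ⊔ Subgroup.closure (TD4 F)) ∧
      (bD4 (basD4 F (k + 4)) w = 0 → (gD4 F).Sg (basD4 F (k + 4)) w ∈ (gD4 F).EE 8 (basD4 F) ⊔ Subgroup.closure (TD4 F)) := by
    intro k w hk
    exact ⟨fun h => (le_sup_left : _ ≤ (gD4 F).EE 8 (basD4 F) ⊔ Subgroup.closure (TD4 F)) (hSgD4 (by omega) h),
      fun h => (le_sup_left : _ ≤ (gD4 F).EE 8 (basD4 F) ⊔ Subgroup.closure (TD4 F)) (hSgD4 (by omega) h)⟩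
  apply (gD4 F).elim_top hsD4 _ hS
  · intro k v hk hQ hv hl
    apply (gD4 F).pre_of hsD4 hS k hk _ v hQ hv hl
    rcases Nat.lt_succ_iff_lt_or_eq.mp hk with hk3 | rfl
    · apply (gD4 F).h0_of_aux hsD4 hS k hk (basD4 F (k + 1) - basD4 F (k + 1 + 4))
      · rw [Q_hyp qsD4 (hsD4.Qe _ (by omega)) (hsD4.Qf _ (by omega))]
        · simp
        · have h := hsD4 (F := F).Bef (k + 1) (k + 1) (by omega) (by omega)
          simpa using h
      · rw [qsD4.subB']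
        have h1 := hsD4 (F := F).Bef (k + 1) k (by omega) (by omega)
        have h2 := hsD4 (F := F).Bff k (k + 1) (by omega) (by omega)
        rw [h2, qsD4.symm, h1, if_neg (by omega), sub_zero]
      · rw [qsD4.subB']
        have h1 := hsD4 (F := F).Bef k (k + 1) (by omega) (by omega)
        have h2 := hsD4 (F := F).Bee k (k + 1) (by omega) (by omega)
        rw [h1, h2, if_neg (by omega), sub_zero]
      · intro i hi
        have h1 := hsD4 (F := F).Bef i (k + 1) (by omega) (by omega)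
        have h2 := hsD4 (F := F).Bee i (k + 1) (by omega) (by omega)
        have h3 := hsD4 (F := F).Bef (k + 1) i (by omega) (by omega)
        have h4 := hsD4 (F := F).Bff i (k + 1) (by omega) (by omega)
        rw [qsD4.subB', qsD4.subB', h1, h2, h4, qsD4.symm, h3, if_neg (by omega), if_neg (by omega)]
        simp
    · obtain ⟨σ, hσ⟩ := (gD4 F).exists_refl (Q_ne_D4 (F := F))
      refine ⟨σ, (le_sup_right : _ ≤ (gD4 F).EE 8 (basD4 F) ⊔ Subgroup.closure (TD4 F))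
        (Subgroup.subset_closure (Or.inr hσ)), ?_, ?_⟩
      · intro i hi
        simp only
        rw [hσ, hσ, refl_fixD4 (by omega) (by omega) (by omega), refl_fixD4 (by omega) (by omega) (by omega)]
        exact ⟨rfl, rfl⟩
      · rw [hσ, refl_eD4]
        show bD4 (e3D4 F) (f3D4 F) ≠ 0
        rw [Bef3]
        exact one_ne_zero
  · intro k a hk ha
    rcases Nat.lt_succ_iff_lt_or_eq.mp hk with hk3 | rfl
    · exact (gD4 F).scale_of_lt hsD4 hS k (k + 1) (by omega) (by omega) a ha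
    · obtain ⟨ρ, hρ⟩ := (gD4 F).exists_rot ha (Qe3 (F := F)) Qf3 Bef3
      refine ⟨ρ, (le_sup_right : _ ≤ (gD4 F).EE 8 (basD4 F) ⊔ Subgroup.closure (TD4 F))
        (Subgroup.subset_closure (Or.inl ⟨a, ha, hρ⟩)), ?_, ?_⟩
      · intro i hi
        simp only
        rw [hρ, hρ, rot_fixD4 (by omega) (by omega) (by omega), rot_fixD4 (by omega) (by omega) (by omega)]
        exact ⟨rfl, rfl⟩
      · rw [map_smul, hρ, rot_fD4, smul_smul, mul_inv_cancel₀ ha, one_smul]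
  · intro g hg
    have : g = 1 := by
      apply extD4
      intro k hk
      have hk8 : k < 8 := hk
      rw [(gD4 F).act_one]
      by_cases h4 : k < 4
      · exact (hg k h4).1
      · have h5 := (hg (k - 4) (by omega)).2
        simp only at h5
        rwa [Nat.sub_add_cancel (by omega)] at h5
    rw [this]
    exact Subgroup.one_mem _

end Cfsg.Agent.Lib.Chev.Om
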