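import Cfsg.Agent.Lib.Chev.Om.B2a
import Cfsg.Agent.Lib.Chev.Om.D4b
import Cfsg.Agent.Lib.Chev.All5
import Cfsg.Agent.Lib.Chev.All3
import Cfsg.Agent.Lib.Chev.Perf
import Cfsg.Agent.Lib.Chev.Stein6

/-! Type B₂: the isomorphism with the projective group of the commutator subgroup. -/

set_option autoImplicit false
set_option linter.unusedSimpArgs false
set_option linter.unusedVariables false
set_option linter.unusedSectionVars false
set_option maxRecDepth 100000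

namespace Cfsg.Agent.Lib.Chev.Om

open Cfsg Cfsg.Lie
open scoped commutatorElement

variable {F : Type*} [Field F]

namespace OGp

variable {V : Type*} [AddCommGroup V] [Module F V] {Q : V → F} {B : V → V → F} {O : Type*} [Group O] (G : OGp Q B O)

/-- A Siegel transformation scaled by a torus element is a commutator. -/
theorem Sg_mem_comm {u w : V} (hu : Q u = 0) (h : B u w = 0) (t : O) {χ : F} (hχ0 : χ ≠ 0) (hχ : χ ≠ 1)
    (h1 : G.act t u = χ • u) (h2 : G.act t w = w) (c : F) : G.Sg u (c • w) ∈ commutator O := by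
  have hχ' : χ - 1 ≠ 0 := sub_ne_zero.mpr hχ
  have hw : ∀ d : F, B u (d • w) = 0 := fun d => by rw [G.qs.smulB', h, mul_zero]
  obtain ⟨d, hd⟩ : ∃ d : F, χ * d - d = c := ⟨c / (χ - 1), by field_simp⟩
  have e1 : t * G.Sg u (d • w) * t⁻¹ = G.Sg u ((χ * d) • w) := by
    rw [G.Sg_conj t hu (hw d), map_smul, h1, h2, G.Sg_scale _ _ hχ0, smul_smul]
  have e2 : G.Sg u (c • w) = ⁅t, G.Sg u (d • w)⁆ := by
    rw [commutatorElement_def, e1, G.Sg_inv hu (hw d), G.Sg_add hu (hw _) (by rw [G.qs.negB', hw d, neg_zero]), ← neg_smul,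
      ← add_smul, ← sub_eq_add_neg, hd]
  rw [e2]
  exact Subgroup.commutator_mem_commutator (Subgroup.mem_top _) (Subgroup.mem_top _)

end OGp

/-- `e₂` -/
noncomputable abbrev e2B2 (F : Type*) [Field F] : Unit ⊕ (Fin 2 ⊕ Fin 2) → F := basB2 F 2
/-- `f₂` -/
noncomputable abbrev f2B2 (F : Type*) [Field F] : Unit ⊕ (Fin 2 ⊕ Fin 2) → F := basB2 F 4
/-- `e₀` -/
noncomputable abbrev e0B2 (F : Type*) [Field F] : Unit ⊕ (Fin 2 ⊕ Fin 2) → F := basB2 F 0

theorem B_valB2 {a b : ℕ} (h : mtB2.bet a b = 0) : bB2 (basB2 F a) (basB2 F b) = 0 := by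
  rw [repB2.hB, h]
  simp

theorem B_val1B2 {a b : ℕ} (h : mtB2.bet a b = 1) : bB2 (basB2 F a) (basB2 F b) = 1 := by
  rw [repB2.hB, h]
  simp

theorem Q_valB2 {a : ℕ} (h : mtB2.kap a = 0) : quadFormOdd 2 F (basB2 F a) = 0 := by
  rw [repB2.hQ, h]
  simp

theorem Q_val1B2 {a : ℕ} (h : mtB2.kap a = 1) : quadFormOdd 2 F (basB2 F a) = 1 := by
  rw [repB2.hQ, h]
  simp

theorem Qe2 : quadFormOdd 2 F (e2B2 F) = 0 := Q_valB2 (by decide)
theorem Qf2 : quadFormOdd 2 F (f2B2 F) = 0 := Q_valB2 (by decide)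
theorem Bef2 : bB2 (e2B2 F) (f2B2 F) = 1 := B_val1B2 (by decide)
theorem Qe0 : quadFormOdd 2 F (e0B2 F) = 1 := Q_val1B2 (by decide)
theorem Qe0' : quadFormOdd 2 F (e0B2 F) ≠ 0 := by rw [Qe0]; exact one_ne_zero

theorem bet_fixB2 : ∀ k, k < 5 → k ≠ 2 → k ≠ 4 → mtB2.bet k 2 = 0 ∧ mtB2.bet k 4 = 0 := by decide

theorem rot_fixB2 {k : ℕ} (hk : k < 5) (h3 : k ≠ 2) (h7 : k ≠ 4) (a : F) :
    rotF bB2 (e2B2 F) (f2B2 F) a (basB2 F k) = basB2 F k :=
  rotF_fix qsB2 (B_valB2 (bet_fixB2 k hk h3 h7).1) (B_valB2 (bet_fixB2 k hk h3 h7).2)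

theorem rot_eB2 (a : F) : rotF bB2 (e2B2 F) (f2B2 F) a (basB2 F 2) = a • basB2 F 2 :=
  rotF_e qsB2 Qe2 Qf2 Bef2

theorem rot_fB2 (a : F) : rotF bB2 (e2B2 F) (f2B2 F) a (basB2 F 4) = a⁻¹ • basB2 F 4 :=
  rotF_f qsB2 Qe2 Qf2 Bef2

theorem bet_0B2 : ∀ k, k < 5 → k ≠ 0 → mtB2.bet k 0 = 0 := by decide

theorem refl_fixB2 {k : ℕ} (hk : k < 5) (h0 : k ≠ 0) :
    reflF (quadFormOdd 2 F) bB2 (e0B2 F) (basB2 F k) = basB2 F k :=
  reflF_fix' qsB2 (B_valB2 (bet_0B2 k hk h0))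

theorem refl_0B2 : reflF (quadFormOdd 2 F) bB2 (e0B2 F) (basB2 F 0) = (-1 : F) • basB2 F 0 := by
  unfold reflF
  rw [Qe0, repB2.hB]
  have : mtB2.bet 0 0 = 2 := by decide
  rw [this]
  simp only [Int.cast_ofNat, div_one, two_smul, neg_smul, one_smul]
  abel

/-- The complement of `E`. -/
def TB2 (F : Type*) [Field F] : Set ↥(isometryGroup F (quadFormOdd 2 F)) :=
  {g | (∃ a : F, a ≠ 0 ∧ ∀ v, (gB2 F).act g v = rotF bB2 (e2B2 F) (f2B2 F) a v) ∨
    (∀ v, (gB2 F).act g v = reflF (quadFormOdd 2 F) bB2 (e0B2 F) v)}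

theorem TB2_inv : ∀ t ∈ TB2 F, t⁻¹ ∈ TB2 F := by
  rintro t (⟨a, ha, h⟩ | h)
  · left
    refine ⟨a⁻¹, inv_ne_zero ha, fun v => ?_⟩
    have e : (gB2 F).act t (rotF bB2 (e2B2 F) (f2B2 F) a⁻¹ v) = v := by
      rw [h, rotF_rotF qsB2 Qe2 Qf2 Bef2, mul_inv_cancel₀ ha, rotF_one qsB2]
    conv_lhs => rw [← e]
    rw [(gB2 F).act_inv_act]
  · right
    intro v
    have e : (gB2 F).act t (reflF (quadFormOdd 2 F) bB2 (e0B2 F) v) = v := by
      rw [h, reflF_reflF qsB2 Qe0']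
    conv_lhs => rw [← e]
    rw [(gB2 F).act_inv_act]

theorem TB2_col : ∀ t ∈ TB2 F, ∀ k, k < 5 → ∃ (l : F) (k' : ℕ), l ≠ 0 ∧ k' < 5 ∧ (gB2 F).act t (basB2 F k) = l • basB2 F k' := by
  rintro t (⟨a, ha, h⟩ | h) k hk
  · rw [h]
    by_cases h3 : k = 2
    · subst h3
      exact ⟨a, 2, ha, by norm_num, rot_eB2 a⟩
    by_cases h7 : k = 4
    · subst h7
      exact ⟨a⁻¹, 4, inv_ne_zero ha, by norm_num, rot_fB2 a⟩
    · exact ⟨1, k, one_ne_zero, hk, by rw [one_smul]; exact rot_fixB2 hk h3 h7 a⟩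
  · rw [h]
    by_cases h0 : k = 0
    · subst h0
      exact ⟨-1, 0, neg_ne_zero.mpr one_ne_zero, by norm_num, refl_0B2⟩
    · exact ⟨1, k, one_ne_zero, hk, by rw [one_smul]; exact refl_fixB2 hk h0⟩

theorem topB2 : (gB2 F).EE 5 (basB2 F) ⊔ Subgroup.closure (TB2 F) = ⊤ := by
  have hS : ∀ k w, k < 2 →
      (bB2 (basB2 F (k + 1)) w = 0 → (gB2 F).Sg (basB2 F (k + 1)) w ∈ (gB2 F).EE 5 (basB2 F) ⊔ Subgroup.closure (TB2 F)) ∧
      (bB2 (basB2 F (k + 3)) w = 0 → (gB2 F).Sg (basB2 F (k + 3)) w ∈ (gB2 F).EE 5 (basB2 F) ⊔ Subgroup.closure (TB2 F)) := by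
    intro k w hk
    exact ⟨fun h => (le_sup_left : _ ≤ (gB2 F).EE 5 (basB2 F) ⊔ Subgroup.closure (TB2 F)) (hSgB2 (by omega) (by omega) h),
      fun h => (le_sup_left : _ ≤ (gB2 F).EE 5 (basB2 F) ⊔ Subgroup.closure (TB2 F)) (hSgB2 (by omega) (by omega) h)⟩
  have h01 : ∀ k, k < 2 → mtB2.bet (k + 1) 0 = 0 ∧ mtB2.bet (k + 3) 0 = 0 := by decide
  apply (gB2 F).elim_top hsB2 _ hS
  · intro k v hk hQ hv hl
    apply (gB2 F).pre_of hsB2 hS k hk _ v hQ hv hl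
    apply (gB2 F).h0_of_aux hsB2 hS k hk (basB2 F 0) Qe0' (B_valB2 (h01 k hk).2) (B_valB2 (h01 k hk).1)
    intro i hi
    exact ⟨B_valB2 (h01 i (by omega)).1, B_valB2 (h01 i (by omega)).2⟩
  · intro k a hk ha
    rcases Nat.lt_succ_iff_lt_or_eq.mp hk with hk3 | rfl
    · exact (gB2 F).scale_of_lt hsB2 hS k (k + 1) (by omega) (by omega) a ha
    · obtain ⟨ρ, hρ⟩ := (gB2 F).exists_rot ha (Qe2 (F := F)) Qf2 Bef2
      refine ⟨ρ, (le_sup_right : _ ≤ (gB2 F).EE 5 (basB2 F) ⊔ Subgroup.closure (TB2 F))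
        (Subgroup.subset_closure (Or.inl ⟨a, ha, hρ⟩)), ?_, ?_⟩
      · intro i hi
        rw [hρ, hρ, rot_fixB2 (by omega) (by omega) (by omega), rot_fixB2 (by omega) (by omega) (by omega)]
        exact ⟨rfl, rfl⟩
      · rw [map_smul, hρ, rot_fB2, smul_smul, mul_inv_cancel₀ ha, one_smul]
  · intro g hg
    have hfix : ∀ k, k < 5 → k ≠ 0 → (gB2 F).act g (basB2 F k) = basB2 F k := by
      intro k hk h0
      by_cases h3 : k < 3
      · have h5 : (gB2 F).act g (basB2 F (k - 1 + 1)) = basB2 F (k - 1 + 1) := (hg (k - 1) (by omega)).1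
        rwa [Nat.sub_add_cancel (by omega)] at h5
      · have h5 : (gB2 F).act g (basB2 F (k - 3 + 3)) = basB2 F (k - 3 + 3) := (hg (k - 3) (by omega)).2
        rwa [Nat.sub_add_cancel (by omega)] at h5
    obtain ⟨v, hv⟩ : ∃ v, v = (gB2 F).act g (basB2 F 0) := ⟨_, rfl⟩
    have hz : ∀ k, k < 5 → k ≠ 0 → v (swB2 (decB2 k)) = 0 := by
      intro k hk h0
      rw [← bB2_iso hk h0 v, ← hfix k hk h0, hv, (gB2 F).B_act]
      exact B_valB2 (bet_0B2 k hk h0)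
    have hform : v = v (.inl ()) • basB2 F 0 := by
      funext x
      have e0 : basB2 F 0 = Pi.single (.inl ()) 1 := rfl
      rw [e0]
      rcases x with ⟨⟩ | i | i
      · simp
      · have := hz (i.val + 3) (by omega) (by omega)
        have e : ∀ i : Fin 2, swB2 (decB2 (i.val + 3)) = .inr (.inl i) := by decide
        rw [e i] at this
        rw [this]
        simp
      · have := hz (i.val + 1) (by omega) (by omega)
        have e : ∀ i : Fin 2, swB2 (decB2 (i.val + 1)) = .inr (.inr i) := by decide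
        rw [e i] at this
        rw [this]
        simp
    have hc : v (.inl ()) * v (.inl ()) = 1 := by
      have h1 : quadFormOdd 2 F v = 1 := by
        rw [hv, (gB2 F).Q_act]
        exact Qe0
      rw [hform, qsB2.smulQ, Qe0, mul_one] at h1
      exact h1
    rcases mul_self_eq_one_iff.mp hc with h1 | h1
    · have : g = 1 := by
        apply extB2
        intro k hk
        have hk8 : k < 5 := hk
        rw [(gB2 F).act_one]
        by_cases h0 : k = 0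
        · subst h0
          rw [← hv, hform, h1, one_smul]
        · exact hfix k hk8 h0
      rw [this]
      exact Subgroup.one_mem _
    · obtain ⟨σ, hσ⟩ := (gB2 F).exists_refl (Qe0' (F := F))
      have : g = σ := by
        apply extB2
        intro k hk
        have hk8 : k < 5 := hk
        rw [hσ]
        by_cases h0 : k = 0
        · subst h0
          rw [← hv, hform, h1, refl_0B2]
        · rw [hfix k hk8 h0, refl_fixB2 hk8 h0]
      rw [this]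
      exact (le_sup_right : _ ≤ (gB2 F).EE 5 (basB2 F) ⊔ Subgroup.closure (TB2 F))
        (Subgroup.subset_closure (Or.inr hσ))

theorem commTB2 : ∀ s ∈ TB2 F, ∀ t ∈ TB2 F, s * t * s⁻¹ * t⁻¹ ∈ (gB2 F).EE 5 (basB2 F) := by
  have hcomm : ∀ s t : ↥(isometryGroup F (quadFormOdd 2 F)), s * t = t * s → s * t * s⁻¹ * t⁻¹ ∈ (gB2 F).EE 5 (basB2 F) := by
    intro s t h
    rw [h]
    have : t * s * s⁻¹ * t⁻¹ = 1 := by group
    rw [this]
    exact Subgroup.one_mem _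
  have hrs : ∀ (a : F) (s t : ↥(isometryGroup F (quadFormOdd 2 F))),
      (∀ v, (gB2 F).act s v = rotF bB2 (e2B2 F) (f2B2 F) a v) →
      (∀ v, (gB2 F).act t v = reflF (quadFormOdd 2 F) bB2 (e0B2 F) v) → s * t = t * s := by
    intro a s t hs ht
    apply extB2
    intro k hk
    have hk8 : k < 5 := hk
    rw [(gB2 F).act_mul, (gB2 F).act_mul]
    by_cases h0 : k = 0
    · subst h0
      rw [ht, refl_0B2, map_smul, hs, rot_fixB2 (by norm_num) (by norm_num) (by norm_num), ht, refl_0B2]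
    by_cases h3 : k = 2
    · subst h3
      rw [ht, refl_fixB2 (by norm_num) (by norm_num), hs, rot_eB2, map_smul, ht, refl_fixB2 (by norm_num) (by norm_num)]
    by_cases h7 : k = 4
    · subst h7
      rw [ht, refl_fixB2 (by norm_num) (by norm_num), hs, rot_fB2, map_smul, ht, refl_fixB2 (by norm_num) (by norm_num)]
    · rw [ht, refl_fixB2 hk8 h0, hs, rot_fixB2 hk8 h3 h7, ht, refl_fixB2 hk8 h0]
  rintro s (⟨a, ha, hs⟩ | hs) t (⟨b, hb, ht⟩ | ht)
  · apply hcomm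
    apply (gB2 F).ext
    intro v
    rw [(gB2 F).act_mul, (gB2 F).act_mul, hs, ht, hs, ht, rotF_rotF qsB2 Qe2 Qf2 Bef2, rotF_rotF qsB2 Qe2 Qf2 Bef2, mul_comm]
  · exact hcomm _ _ (hrs a s t hs ht)
  · exact hcomm _ _ (hrs b t s ht hs).symm
  · apply hcomm
    have : s = t := by
      apply (gB2 F).ext
      intro v
      rw [hs, ht]
    rw [this]

theorem comm_leB2 : commutator ↥(isometryGroup F (quadFormOdd 2 F)) ≤ (gB2 F).EE 5 (basB2 F) :=
  comm_le_of _ (TB2 F) TB2_inv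
    (fun t ht x hx => (gB2 F).EE_conj t (TB2_col t ht) x hx) commTB2 topB2

set_option synthInstance.maxSize 1000 in
set_option synthInstance.maxHeartbeats 200000 in
theorem hpB2 : ∀ x, x < 5 → ∀ y, y < 5 → x ≠ 0 → mtB2.bet x y ≠ 1 → x ≠ y →
      ((x = 1 ∨ x = 3) ∧ mtB2.bet y 1 = 0 ∧ mtB2.bet y 3 = 0) ∨
      ((x = 2 ∨ x = 4) ∧ mtB2.bet y 2 = 0 ∧ mtB2.bet y 4 = 0) := by
  decide

theorem E_leB2 (hF : ∃ a : F, a ≠ 0 ∧ a ≠ 1) :
    (gB2 F).EE 5 (basB2 F) ≤ commutator ↥(isometryGroup F (quadFormOdd 2 F)) := by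
  obtain ⟨a, ha0, ha1⟩ := hF
  rw [OGp.EE, Subgroup.closure_le]
  rintro _ ⟨x, y, c, hx, hy, h1, h2, rfl⟩
  by_cases hxy : x = y
  · subst hxy
    rw [(gB2 F).Sg_self h1]
    exact Subgroup.one_mem _
  have hx0 : x ≠ 0 := by
    rintro rfl
    have h3 : quadFormOdd 2 F (basB2 F 0) = 1 := Qe0
    rw [h3] at h1
    exact one_ne_zero h1
  have hb1 : mtB2.bet x y ≠ 1 := by
    intro h3
    have h4 := B_val1B2 (F := F) h3
    rw [h4] at h2
    exact one_ne_zero h2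
  have key : ∀ p, mtB2.bet p (p + 2) = 1 → mtB2.kap p = 0 → mtB2.kap (p + 2) = 0 → (x = p ∨ x = p + 2) →
      mtB2.bet y p = 0 → mtB2.bet y (p + 2) = 0 →
      (gB2 F).Sg (basB2 F x) (c • basB2 F y) ∈ commutator ↥(isometryGroup F (quadFormOdd 2 F)) := by
    intro p hpp hk1 hk2 hxp hyp hyp2
    have hQ1 : quadFormOdd 2 F (basB2 F p) = 0 := Q_valB2 hk1
    have hQ2 : quadFormOdd 2 F (basB2 F (p + 2)) = 0 := Q_valB2 hk2
    have hB1 : bB2 (basB2 F p) (basB2 F (p + 2)) = 1 := B_val1B2 hpp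
    obtain ⟨ρ, hρ⟩ := (gB2 F).exists_rot ha0 hQ1 hQ2 hB1
    have hy' : (gB2 F).act ρ (basB2 F y) = basB2 F y := by
      rw [hρ]
      exact rotF_fix qsB2 (B_valB2 hyp) (B_valB2 hyp2)
    rcases hxp with rfl | rfl
    · apply (gB2 F).Sg_mem_comm h1 h2 ρ ha0 ha1 _ hy'
      rw [hρ]
      exact rotF_e qsB2 hQ1 hQ2 hB1
    · apply (gB2 F).Sg_mem_comm h1 h2 ρ (inv_ne_zero ha0) (by
        intro h3
        apply ha1
        rw [← inv_inv a, h3, inv_one]) _ hy'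
      rw [hρ]
      exact rotF_f qsB2 hQ1 hQ2 hB1
  rcases hpB2 x hx y hy hx0 hb1 hxy with ⟨h3, h4, h5⟩ | ⟨h3, h4, h5⟩
  · exact key 1 (by decide) (by decide) (by decide) h3 h4 h5
  · exact key 2 (by decide) (by decide) (by decide) h3 h4 h5

theorem b2c1' : chkX chevB2.nroots mtB2 = true := b2c1
theorem b2c2' : chkR2 (tblOf chevB2) mtB2 = true := TabB2.tbl_eq ▸ b2c2
theorem b2c3' : chkR3 (tblOf chevB2) mtB2 = true := TabB2.tbl_eq ▸ b2c3
theorem b2c4' : chkRange chevB2.nroots mtB2 = true := b2c4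
theorem b2c5' : chkGen chevB2.nroots mtB2 = true := b2c5

/-- The homomorphism of the presented group. -/
theorem liftB2 : ∃ ψ : chevB2.SteinbergGroup F →* ↥(isometryGroup F (quadFormOdd 2 F)),
    ∀ r t, r < chevB2.nroots → ψ (chevB2.stGen F r t) = xO (gB2 F) mtB2 (basB2 F) r t :=
  stLift_of (gB2 F) repB2 chevB2 b2c1' b2c2' b2c3' extB2

theorem nonabB2 (hF : ∃ a : F, a ≠ 0 ∧ a ≠ 1) : ∃ a ∈ commutator ↥(isometryGroup F (quadFormOdd 2 F)),
    ∃ b ∈ commutator ↥(isometryGroup F (quadFormOdd 2 F)), a * b ≠ b * a := by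
  have hE := E_leB2 hF
  have h1 : (gB2 F).Sg (basB2 F 1) ((1 : F) • basB2 F 4) ∈ (gB2 F).EE 5 (basB2 F) :=
    (gB2 F).gen_mem (by norm_num) (by norm_num) (Q_valB2 (by decide)) (B_valB2 (by decide)) 1
  have h2 : (gB2 F).Sg (basB2 F 2) ((1 : F) • basB2 F 0) ∈ (gB2 F).EE 5 (basB2 F) :=
    (gB2 F).gen_mem (by norm_num) (by norm_num) (Q_valB2 (by decide)) (B_valB2 (by decide)) 1
  rw [one_smul] at h1 h2
  refine ⟨_, hE h1, _, hE h2, ?_⟩
  apply (gB2 F).Sg_noncomm (f₁ := basB2 F 3) (Q_valB2 (by decide)) (B_valB2 (by decide)) (Q_valB2 (by decide))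
    (B_valB2 (by decide)) (B_val1B2 (by decide)) (B_valB2 (by decide)) (Q_valB2 (by decide)) (B_valB2 (by decide))
    (B_valB2 (by decide)) (B_val1B2 (by decide))
  rw [B_valB2 (F := F) (a := 4) (b := 0) (by decide), Qe0, zero_add, one_smul]
  intro h0
  have h3 : quadFormOdd 2 F (basB2 F 0) = 1 := Qe0
  have h4 : quadFormOdd 2 F (basB2 F 2) = 0 := Qe2
  rw [h0, h4] at h3
  exact zero_ne_one h3

/-- `B₂(F) ≅ PΩ₅(F)`. -/
theorem chevB2_iso (hF : ∃ a : F, a ≠ 0 ∧ a ≠ 1) :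
    Nonempty (↥(chevB2.group F) ≃* POmega F (quadFormOdd 2 F)) := by
  have hD : chevB2 ∈ [chevG2, chevB2, chevD4, chevF4, chevE6, chevE7, chevE8] := by simp
  obtain ⟨G, M, hM⟩ := good5_of_mem hD
  obtain ⟨G3⟩ := good3_of_mem hD
  obtain ⟨ψ, hψ⟩ := liftB2 (F := F)
  have hr := range_eq (gB2 F) repB2 chevB2 b2c1' b2c4' b2c5' ψ hψ
  have hs : IsSimpleGroup ↥(chevB2.group F) := (simple_of_perfect G3 (perfect_of_mem hD (fun _ => hF))).1
  have hrange : ψ.range = commutator ↥(isometryGroup F (quadFormOdd 2 F)) := by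
    rw [hr]
    exact le_antisymm (E_leB2 hF) comm_leB2
  exact iso_final (G.thetaD F) G.thetaD_surj (G.thetaD_ker M hM) hs ψ hrange (nonabB2 hF)

end Cfsg.Agent.Lib.Chev.Om
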