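import Cfsg.Agent.Lib.Chev.Om.Frame

/-!
The isometry group of a quadratic form on coordinate space as an abstract isometry group.
-/

set_option autoImplicit false
set_option linter.unusedSimpArgs false
set_option linter.unusedVariables false
set_option linter.unusedSectionVars false

namespace Cfsg.Agent.Lib.Chev.Om

open Cfsg Cfsg.Lie
open scoped Matrix

variable {F : Type*} [Field F] {ι : Type} [Fintype ι] [DecidableEq ι]

/-- The isometry group as an abstract isometry group. -/
noncomputable def mkOGp {Q : (ι → F) → F} {B : (ι → F) → (ι → F) → F} (hS : QSys Q B) :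
    OGp Q B ↥(isometryGroup F Q) where
  qs := hS
  act :=
    { toFun := fun g => Matrix.toLin' ((g : Matrix.GeneralLinearGroup ι F) : Matrix ι ι F)
      map_one' := by
        simp only [OneMemClass.coe_one, Units.val_one, Matrix.toLin'_one]
        rfl
      map_mul' := fun a b => by
        simp only [Subgroup.coe_mul, Units.val_mul, Matrix.toLin'_mul]
        rfl }
  Q_act g v := by
    show Q (Matrix.toLin' _ v) = Q v
    rw [Matrix.toLin'_apply]
    exact g.2 v v
  inj := by
    intro a b h
    apply Subtype.ext
    apply Units.ext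
    exact Matrix.toLin'.injective h
  mkA := by
    intro f f' hQ h1 h2
    have e1 : LinearMap.toMatrix' f * LinearMap.toMatrix' f' = 1 := by
      rw [← LinearMap.toMatrix'_comp]
      have : f.comp f' = LinearMap.id := h1
      rw [this, LinearMap.toMatrix'_id]
    have e2 : LinearMap.toMatrix' f' * LinearMap.toMatrix' f = 1 := by
      rw [← LinearMap.toMatrix'_comp]
      have : f'.comp f = LinearMap.id := h2
      rw [this, LinearMap.toMatrix'_id]
    refine ⟨⟨⟨LinearMap.toMatrix' f, LinearMap.toMatrix' f', e1, e2⟩, ?_⟩, ?_⟩
    · intro u v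
      show Q (LinearMap.toMatrix' f *ᵥ u) = Q u
      rw [← Matrix.toLin'_apply, Matrix.toLin'_toMatrix']
      exact hQ u
    · show Matrix.toLin' (LinearMap.toMatrix' f) = f
      rw [Matrix.toLin'_toMatrix']

/-- Extensionality on coordinate vectors. -/
theorem act_ext_single {Q : (ι → F) → F} {B : (ι → F) → (ι → F) → F} {O : Type*} [Group O] (G : OGp Q B O)
    {g h : O} (H : ∀ x : ι, G.act g (Pi.single x 1) = G.act h (Pi.single x 1)) : g = h := by
  apply G.inj
  apply LinearMap.pi_ext
  intro i x
  have e : (Pi.single i x : ι → F) = x • Pi.single i 1 := by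
    ext j
    simp [Pi.single_apply]
  rw [e, map_smul, map_smul, H]

end Cfsg.Agent.Lib.Chev.Om
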