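import Cfsg.Agent.Lib.Chev.Om.D4T

/-! The quadratic space of type D₄: coordinates, root data, hyperbolic system. -/

set_option autoImplicit false
set_option linter.unusedSimpArgs false
set_option linter.unusedVariables false
set_option linter.unusedSectionVars false

namespace Cfsg.Agent.Lib.Chev.Om

open Cfsg Cfsg.Lie

variable {F : Type*} [Field F]

/-- The polar form of type D₄. -/
def bD4 (u v : Fin 4 ⊕ Fin 4 → F) : F := ∑ x : Fin 4 ⊕ Fin 4, u x * v x.swap

theorem qsD4 : QSys (quadFormPlus 4 F) (bD4 (F := F)) where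
  add x y := by
    simp only [quadFormPlus, bD4, Fintype.sum_sum_type, Fin.sum_univ_four, Pi.add_apply, Sum.swap_inl, Sum.swap_inr]
    ring
  smulQ c x := by
    simp only [quadFormPlus, Fin.sum_univ_four, Pi.smul_apply, smul_eq_mul]
    ring
  symm x y := by
    simp only [bD4, Fintype.sum_sum_type, Fin.sum_univ_four, Sum.swap_inl, Sum.swap_inr]
    ring
  addB x y z := by
    simp only [bD4, Fintype.sum_sum_type, Fin.sum_univ_four, Pi.add_apply, Sum.swap_inl, Sum.swap_inr]
    ring
  smulB c x y := by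
    simp only [bD4, Fintype.sum_sum_type, Fin.sum_univ_four, Pi.smul_apply, smul_eq_mul, Sum.swap_inl, Sum.swap_inr]
    ring

/-- The coordinate of a code. -/
def decD4 (k : ℕ) : Fin 4 ⊕ Fin 4 := if k < 4 then Sum.inl (Fin.ofNat 4 k) else Sum.inr (Fin.ofNat 4 k)

/-- The basis vector of a code. -/
noncomputable def basD4 (F : Type*) [Field F] (k : ℕ) : Fin 4 ⊕ Fin 4 → F :=
  if k < 8 then Pi.single (decD4 k) 1 else 0

theorem bD4_single (a : Fin 4 ⊕ Fin 4) (v : Fin 4 ⊕ Fin 4 → F) : bD4 (Pi.single a 1) v = v a.swap := by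
  unfold bD4
  rw [Finset.sum_eq_single a]
  · simp
  · intro b _ hb
    simp [Pi.single_apply, hb]
  · simp

theorem Q_singleD4 (x : Fin 4 ⊕ Fin 4) : quadFormPlus 4 F (Pi.single x 1) = 0 := by
  unfold quadFormPlus
  apply Finset.sum_eq_zero
  intro i _
  by_cases h : x = Sum.inl i
  · subst h
    simp
  · simp [Pi.single_apply, Ne.symm h]

theorem dec_swapD4 : ∀ a, a < 8 → ∀ b, b < 8 → ((decD4 a).swap = decD4 b ↔ (a + 4 = b ∨ b + 4 = a)) := by
  decide

theorem repD4 : Rep (quadFormPlus 4 F) bD4 mtD4 (basD4 F) where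
  hB a b := by
    by_cases ha : a < 8
    · by_cases hb : b < 8
      · have e : mtD4.bet a b = if a + 4 = b ∨ b + 4 = a then 1 else 0 := by
          show (if a < 8 ∧ b < 8 ∧ (a + 4 = b ∨ b + 4 = a) then (1 : ℤ) else 0) = _
          simp [ha, hb]
        unfold basD4
        rw [if_pos ha, if_pos hb, bD4_single, Pi.single_apply, e]
        by_cases h : a + 4 = b ∨ b + 4 = a
        · rw [if_pos ((dec_swapD4 a ha b hb).mpr h), if_pos h]
          simp
        · rw [if_neg (fun h' => h ((dec_swapD4 a ha b hb).mp h')), if_neg h]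
          simp
      · have e : mtD4.bet a b = 0 := by
          show (if a < 8 ∧ b < 8 ∧ (a + 4 = b ∨ b + 4 = a) then (1 : ℤ) else 0) = _
          simp [hb]
        unfold basD4
        rw [if_neg hb, e, qsD4.zeroB']
        simp
    · have e : mtD4.bet a b = 0 := by
        show (if a < 8 ∧ b < 8 ∧ (a + 4 = b ∨ b + 4 = a) then (1 : ℤ) else 0) = _
        simp [ha]
      unfold basD4
      rw [if_neg ha, e, qsD4.zeroB]
      simp
  hQ a := by
    have e : mtD4.kap a = 0 := rfl
    rw [e]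
    unfold basD4
    by_cases ha : a < 8
    · rw [if_pos ha, Q_singleD4]
      simp
    · rw [if_neg ha, qsD4.Q_zero]
      simp

/-- The abstract isometry group of type D₄. -/
noncomputable abbrev gD4 (F : Type*) [Field F] : OGp (quadFormPlus 4 F) bD4 ↥(isometryGroup F (quadFormPlus 4 F)) :=
  mkOGp qsD4

theorem single_basD4 (x : Fin 4 ⊕ Fin 4) : ∃ k, k < 8 ∧ decD4 k = x ∧ (basD4 F k) = Pi.single x 1 := by
  have h : ∀ x : Fin 4 ⊕ Fin 4, ∃ k, k < 8 ∧ decD4 k = x := by decide
  obtain ⟨k, hk, rfl⟩ := h x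
  refine ⟨k, hk, rfl, ?_⟩
  unfold basD4
  rw [if_pos hk]

theorem extD4 (g h : ↥(isometryGroup F (quadFormPlus 4 F)))
    (H : ∀ k, k < mtD4.dim → (gD4 F).act g (basD4 F k) = (gD4 F).act h (basD4 F k)) : g = h := by
  apply act_ext_single (gD4 F)
  intro x
  obtain ⟨k, hk, _, e⟩ := single_basD4 (F := F) x
  rw [← e]
  exact H k hk

theorem sumD4 (w : Fin 4 ⊕ Fin 4 → F) : w = ∑ a ∈ Finset.range 8, w (decD4 a) • basD4 F a := by
  funext x
  rw [Finset.sum_apply]
  have h1 : ∀ a ∈ Finset.range 8, (w (decD4 a) • basD4 F a) x = if decD4 a = x then w x else 0 := by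
    intro a ha
    have ha' : a < 8 := Finset.mem_range.mp ha
    unfold basD4
    rw [if_pos ha', Pi.smul_apply, Pi.single_apply]
    by_cases h : decD4 a = x
    · subst h
      simp
    · rw [if_neg (Ne.symm h), if_neg h]
      simp
  rw [Finset.sum_congr rfl h1]
  have h2 : ∀ x : Fin 4 ⊕ Fin 4, ∃ k, k < 8 ∧ decD4 k = x ∧ ∀ a, a < 8 → decD4 a = x → a = k := by decide
  obtain ⟨k, hk, e, hu⟩ := h2 x
  rw [Finset.sum_eq_single k]
  · rw [if_pos e]
  · intro b hb hbk
    rw [if_neg]
    intro h3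
    exact hbk (hu b (Finset.mem_range.mp hb) h3)
  · intro h3
    exact absurd (Finset.mem_range.mpr hk) h3

theorem bet_eeD4 : ∀ i, i < 4 → ∀ j, j < 4 → mtD4.bet i j = 0 := by decide
theorem bet_ffD4 : ∀ i, i < 4 → ∀ j, j < 4 → mtD4.bet (i + 4) (j + 4) = 0 := by decide
theorem bet_efD4 : ∀ i, i < 4 → ∀ j, j < 4 → mtD4.bet i (j + 4) = if i = j then 1 else 0 := by decide

theorem hsD4 : HSys (quadFormPlus 4 F) bD4 4 (basD4 F) (fun i => basD4 F (i + 4)) where
  Qe i _ := by
    rw [repD4.hQ]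
    simp [mtD4]
  Qf i _ := by
    rw [repD4.hQ]
    simp [mtD4]
  Bee i j hi hj := by
    rw [repD4.hB, bet_eeD4 i hi j hj]
    simp
  Bff i j hi hj := by
    rw [repD4.hB, bet_ffD4 i hi j hj]
    simp
  Bef i j hi hj := by
    rw [repD4.hB, bet_efD4 i hi j hj]
    split_ifs <;> simp
  aniso v _ h := by
    have e1 : ∀ i : Fin 4, decD4 i.val = Sum.inl i := by decide
    have e2 : ∀ i : Fin 4, decD4 (i.val + 4) = Sum.inr i := by decide
    funext x
    rcases x with i | i
    · have h1 := (h i.val i.isLt).2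
      unfold basD4 at h1
      rw [if_pos (by omega), e2, bD4_single] at h1
      exact h1
    · have h1 := (h i.val i.isLt).1
      unfold basD4 at h1
      rw [if_pos (by omega), e1, bD4_single] at h1
      exact h1

/-- Every Siegel transformation attached to a basis vector lies in `E`. -/
theorem hSgD4 {x : ℕ} (hx : x < 8) {w : Fin 4 ⊕ Fin 4 → F} (h : bD4 (basD4 F x) w = 0) :
    (gD4 F).Sg (basD4 F x) w ∈ (gD4 F).EE 8 (basD4 F) := by
  have h1 : quadFormPlus 4 F (basD4 F x) = 0 := by
    rw [repD4.hQ]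
    simp [mtD4]
  have h2 := ((gD4 F).Sg_sum_mem hx h1 (fun a => w (decD4 a)) (Finset.range 8)
    (fun a ha => Finset.mem_range.mp ha) ?_).1
  · rwa [← sumD4 w] at h2
  · intro a ha
    have ha' : a < 8 := Finset.mem_range.mp ha
    have e : bD4 (basD4 F x) = fun v => v (decD4 x).swap := by
      funext v
      unfold basD4
      rw [if_pos hx, bD4_single]
    by_cases h3 : (decD4 x).swap = decD4 a
    · left
      rw [e] at h
      simp only at h
      show w (decD4 a) = 0
      rwa [← h3]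
    · right
      rw [e]
      simp only
      unfold basD4
      rw [if_pos ha', Pi.single_apply, if_neg h3]

end Cfsg.Agent.Lib.Chev.Om
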