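import Cfsg.Agent.Lib.Chev.Om.D4b
import Cfsg.Agent.Lib.Chev.All5
import Cfsg.Agent.Lib.Chev.All3
import Cfsg.Agent.Lib.Chev.Perf
import Cfsg.Agent.Lib.Chev.Stein6

/-! Type D₄: the isomorphism with the projective group of the commutator subgroup. -/

set_option autoImplicit false
set_option linter.unusedSimpArgs false
set_option linter.unusedVariables false
set_option linter.unusedSectionVars false
set_option maxRecDepth 100000

namespace Cfsg.Agent.Lib.Chev.Om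

open Cfsg Cfsg.Lie

variable {F : Type*} [Field F]

theorem d4c1' : chkX chevD4.nroots mtD4 = true := d4c1
theorem d4c2' : chkR2 (tblOf chevD4) mtD4 = true := TabD4.tbl_eq ▸ d4c2
theorem d4c3' : chkR3 (tblOf chevD4) mtD4 = true := TabD4.tbl_eq ▸ d4c3
theorem d4c4' : chkRange chevD4.nroots mtD4 = true := d4c4
theorem d4c5' : chkGen chevD4.nroots mtD4 = true := d4c5
theorem d4c6' : chkPerfT (tblOf chevD4) = true := TabD4.tbl_eq ▸ d4c6

theorem neg_ltD4 : ∀ r, r < 24 → chevD4.neg r < 24 := by decide +kernel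

theorem hcolD4 {r : ℕ} (hr : r < 24) {k : ℕ} (hk : k < 8) {c : F} (hc : c ≠ 0) :
    (gD4 F).act (wO (gD4 F) mtD4 (basD4 F) (chevD4.hWord r c)) (basD4 F k) =
      (c ^ (hA (hOf TabD4.fd.tbl mtD4 r k)).1 * c⁻¹ ^ (hA (hOf TabD4.fd.tbl mtD4 r k)).2) • basD4 F k := by
  have h := hWord_col (gD4 F) repD4 chevD4 d4c1' d4c3' hr hk hc
  rw [TabD4.tbl_eq]
  exact h

theorem wO_memD4 (w : List (ℕ × F)) (hw : ∀ a ∈ w, a.1 < 24) :
    wO (gD4 F) mtD4 (basD4 F) w ∈ (gD4 F).EE 8 (basD4 F) := by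
  induction w with
  | nil => exact Subgroup.one_mem _
  | cons a w ih =>
    rw [wO_cons]
    exact Subgroup.mul_mem _ (Subgroup.subset_closure (xO_mem (gD4 F) repD4 chevD4 d4c1' d4c4'
      (hw a List.mem_cons_self) a.2)) (ih fun b hb => hw b (List.mem_cons_of_mem _ hb))

theorem hWord_memD4 {r : ℕ} (hr : r < 24) (c : F) :
    wO (gD4 F) mtD4 (basD4 F) (chevD4.hWord r c) ∈ (gD4 F).EE 8 (basD4 F) := by
  apply wO_memD4
  intro a ha
  have hn := neg_ltD4 r hr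
  simp only [ChevalleyDatum.hWord, ChevalleyDatum.nWord, List.cons_append, List.nil_append, List.mem_cons,
    List.not_mem_nil, or_false] at ha
  rcases ha with rfl | rfl | rfl | rfl | rfl | rfl <;> assumption

theorem rotsqD4 {c : F} (hc : c ≠ 0) {r : ↥(isometryGroup F (quadFormPlus 4 F))}
    (hr : ∀ v, (gD4 F).act r v = rotF bD4 (e3D4 F) (f3D4 F) (c * c) v) : r ∈ (gD4 F).EE 8 (basD4 F) := by
  have e : r = wO (gD4 F) mtD4 (basD4 F) (chevD4.hWord 2 c) * wO (gD4 F) mtD4 (basD4 F) (chevD4.hWord 20 c) := by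
    apply extD4
    intro k hk
    have hk8 : k < 8 := hk
    rw [hr, (gD4 F).act_mul, hcolD4 (by norm_num) hk8 hc, map_smul, hcolD4 (by norm_num) hk8 hc]
    clear hk
    interval_cases k
    · have h1 : hA (hOf TabD4.fd.tbl mtD4 2 0) = (0, 1) := by decide +kernel
      have h2 : hA (hOf TabD4.fd.tbl mtD4 20 0) = (1, 0) := by decide +kernel
      rw [h1, h2, rot_fixD4 (by norm_num) (by norm_num) (by norm_num)]
      simp [smul_smul, hc]
    · have h1 : hA (hOf TabD4.fd.tbl mtD4 2 1) = (0, 0) := by decide +kernel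
      have h2 : hA (hOf TabD4.fd.tbl mtD4 20 1) = (0, 0) := by decide +kernel
      rw [h1, h2, rot_fixD4 (by norm_num) (by norm_num) (by norm_num)]
      simp
    · have h1 : hA (hOf TabD4.fd.tbl mtD4 2 2) = (0, 0) := by decide +kernel
      have h2 : hA (hOf TabD4.fd.tbl mtD4 20 2) = (0, 0) := by decide +kernel
      rw [h1, h2, rot_fixD4 (by norm_num) (by norm_num) (by norm_num)]
      simp
    · have h1 : hA (hOf TabD4.fd.tbl mtD4 2 3) = (1, 0) := by decide +kernel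
      have h2 : hA (hOf TabD4.fd.tbl mtD4 20 3) = (1, 0) := by decide +kernel
      rw [h1, h2, rot_eD4]
      simp [smul_smul]
    · have h1 : hA (hOf TabD4.fd.tbl mtD4 2 4) = (1, 0) := by decide +kernel
      have h2 : hA (hOf TabD4.fd.tbl mtD4 20 4) = (0, 1) := by decide +kernel
      rw [h1, h2, rot_fixD4 (by norm_num) (by norm_num) (by norm_num)]
      simp [smul_smul, hc]
    · have h1 : hA (hOf TabD4.fd.tbl mtD4 2 5) = (0, 0) := by decide +kernel
      have h2 : hA (hOf TabD4.fd.tbl mtD4 20 5) = (0, 0) := by decide +kernel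
      rw [h1, h2, rot_fixD4 (by norm_num) (by norm_num) (by norm_num)]
      simp
    · have h1 : hA (hOf TabD4.fd.tbl mtD4 2 6) = (0, 0) := by decide +kernel
      have h2 : hA (hOf TabD4.fd.tbl mtD4 20 6) = (0, 0) := by decide +kernel
      rw [h1, h2, rot_fixD4 (by norm_num) (by norm_num) (by norm_num)]
      simp
    · have h1 : hA (hOf TabD4.fd.tbl mtD4 2 7) = (0, 1) := by decide +kernel
      have h2 : hA (hOf TabD4.fd.tbl mtD4 20 7) = (0, 1) := by decide +kernel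
      rw [h1, h2, rot_fD4]
      simp [smul_smul, mul_inv]
  rw [e]
  exact Subgroup.mul_mem _ (hWord_memD4 (by norm_num) c) (hWord_memD4 (by norm_num) c)

theorem comm_rsD4 {a : F} (ha : a ≠ 0) {s t : ↥(isometryGroup F (quadFormPlus 4 F))}
    (hs : ∀ v, (gD4 F).act s v = rotF bD4 (e3D4 F) (f3D4 F) a v)
    (ht : ∀ v, (gD4 F).act t v = reflF (quadFormPlus 4 F) bD4 (e3D4 F - f3D4 F) v) :
    s * t * s⁻¹ * t⁻¹ ∈ (gD4 F).EE 8 (basD4 F) := by
  obtain ⟨r, hr⟩ := (gD4 F).exists_rot (mul_ne_zero ha ha) (Qe3 (F := F)) Qf3 Bef3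
  have e1 : s * t = r * (t * s) := by
    apply extD4
    intro k hk
    have hk8 : k < 8 := hk
    rw [(gD4 F).act_mul, (gD4 F).act_mul, (gD4 F).act_mul]
    by_cases h3 : k = 3
    · subst h3
      rw [ht, refl_eD4, hs, rot_fD4, hs, rot_eD4, map_smul, ht, refl_eD4, map_smul, hr, rot_fD4, smul_smul, mul_inv]
      congr 1
      field_simp
    by_cases h7 : k = 7
    · subst h7
      rw [ht, refl_fD4, hs, rot_eD4, hs, rot_fD4, map_smul, ht, refl_fD4, map_smul, hr, rot_eD4, smul_smul]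
      congr 1
      field_simp
    · rw [ht, refl_fixD4 hk8 h3 h7, hs, rot_fixD4 hk8 h3 h7, ht, refl_fixD4 hk8 h3 h7, hr, rot_fixD4 hk8 h3 h7]
  have e2 : s * t * s⁻¹ * t⁻¹ = r := by
    rw [e1]
    group
  rw [e2]
  exact rotsqD4 ha hr

theorem commTD4 : ∀ s ∈ TD4 F, ∀ t ∈ TD4 F, s * t * s⁻¹ * t⁻¹ ∈ (gD4 F).EE 8 (basD4 F) := by
  have hcomm : ∀ s t : ↥(isometryGroup F (quadFormPlus 4 F)), s * t = t * s → s * t * s⁻¹ * t⁻¹ ∈ (gD4 F).EE 8 (basD4 F) := by
    intro s t h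
    rw [h]
    have : t * s * s⁻¹ * t⁻¹ = 1 := by group
    rw [this]
    exact Subgroup.one_mem _
  rintro s (⟨a, ha, hs⟩ | hs) t (⟨b, hb, ht⟩ | ht)
  · apply hcomm
    apply (gD4 F).ext
    intro v
    rw [(gD4 F).act_mul, (gD4 F).act_mul, hs, ht, hs, ht, rotF_rotF qsD4 Qe3 Qf3 Bef3, rotF_rotF qsD4 Qe3 Qf3 Bef3, mul_comm]
  · exact comm_rsD4 ha hs ht
  · have h := comm_rsD4 hb ht hs
    have e : s * t * s⁻¹ * t⁻¹ = (t * s * t⁻¹ * s⁻¹)⁻¹ := by group
    rw [e]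
    exact Subgroup.inv_mem _ h
  · apply hcomm
    have : s = t := by
      apply (gD4 F).ext
      intro v
      rw [hs, ht]
    rw [this]

theorem comm_leD4 : commutator ↥(isometryGroup F (quadFormPlus 4 F)) ≤ (gD4 F).EE 8 (basD4 F) :=
  comm_le_of _ (TD4 F) TD4_inv
    (fun t ht x hx => (gD4 F).EE_conj t (TD4_col t ht) x hx) commTD4 topD4

/-- The homomorphism of the presented group. -/
theorem liftD4 : ∃ ψ : chevD4.SteinbergGroup F →* ↥(isometryGroup F (quadFormPlus 4 F)),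
    ∀ r t, r < chevD4.nroots → ψ (chevD4.stGen F r t) = xO (gD4 F) mtD4 (basD4 F) r t :=
  stLift_of (gD4 F) repD4 chevD4 d4c1' d4c2' d4c3' extD4

theorem nonabD4 : ∃ a ∈ commutator ↥(isometryGroup F (quadFormPlus 4 F)),
    ∃ b ∈ commutator ↥(isometryGroup F (quadFormPlus 4 F)), a * b ≠ b * a := by
  obtain ⟨ψ, hψ⟩ := liftD4 (F := F)
  have hr := range_eq (gD4 F) repD4 chevD4 d4c1' d4c4' d4c5' ψ hψ
  have hmem : ∀ z, ψ z ∈ commutator ↥(isometryGroup F (quadFormPlus 4 F)) :=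
    fun z => map_mem_comm (stGrp_perfect chevD4 d4c6') ψ z
  have hE : (gD4 F).EE 8 (basD4 F) ≤ commutator ↥(isometryGroup F (quadFormPlus 4 F)) := by
    show (gD4 F).EE mtD4.dim (basD4 F) ≤ _
    rw [← hr]
    rintro _ ⟨z, rfl⟩
    exact hmem z
  have hB : ∀ i j, i < 8 → j < 8 → bD4 (basD4 F i) (basD4 F j) = ((mtD4.bet i j : ℤ) : F) := fun i j _ _ => repD4.hB i j
  have hQ : ∀ i, quadFormPlus 4 F (basD4 F i) = 0 := fun i => by
    rw [repD4.hQ]
    simp [mtD4]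
  have hb : ∀ i j, mtD4.bet i j = 0 → bD4 (basD4 F i) (basD4 F j) = 0 := fun i j h => by
    rw [repD4.hB, h]
    simp
  have hb1 : ∀ i j, mtD4.bet i j = 1 → bD4 (basD4 F i) (basD4 F j) = 1 := fun i j h => by
    rw [repD4.hB, h]
    simp
  have h1 : (gD4 F).Sg (basD4 F 1) ((1 : F) • basD4 F 6) ∈ (gD4 F).EE 8 (basD4 F) :=
    (gD4 F).gen_mem (by norm_num) (by norm_num) (hQ 1) (hb 1 6 (by decide)) 1
  have h2 : (gD4 F).Sg (basD4 F 2) ((1 : F) • basD4 F 3) ∈ (gD4 F).EE 8 (basD4 F) :=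
    (gD4 F).gen_mem (by norm_num) (by norm_num) (hQ 2) (hb 2 3 (by decide)) 1
  rw [one_smul] at h1 h2
  refine ⟨_, hE h1, _, hE h2, ?_⟩
  apply (gD4 F).Sg_noncomm (f₁ := basD4 F 5) (hQ 1) (hb 1 6 (by decide)) (hQ 2) (hb 2 3 (by decide))
    (hb1 5 1 (by decide)) (hb 5 6 (by decide)) (hQ 6) (hb 5 2 (by decide)) (hb 5 3 (by decide)) (hb1 6 2 (by decide))
  rw [hb 6 3 (by decide), hQ 3]
  simp only [add_zero, zero_smul]
  intro h0
  have h3 := hb1 3 7 (by decide)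
  rw [h0, qsD4.zeroB] at h3
  exact zero_ne_one h3

/-- `D₄(F) ≅ PΩ₈⁺(F)`. -/
theorem chevD4_iso : Nonempty (↥(chevD4.group F) ≃* POmega F (quadFormPlus 4 F)) := by
  have hD : chevD4 ∈ [chevG2, chevB2, chevD4, chevF4, chevE6, chevE7, chevE8] := by simp
  obtain ⟨G, M, hM⟩ := good5_of_mem hD
  obtain ⟨G3⟩ := good3_of_mem hD
  obtain ⟨ψ, hψ⟩ := liftD4 (F := F)
  have hr := range_eq (gD4 F) repD4 chevD4 d4c1' d4c4' d4c5' ψ hψ
  have hs : IsSimpleGroup ↥(chevD4.group F) := by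
    refine (simple_of_perfect G3 (perfect_of_mem hD ?_)).1
    rintro (h | h) <;> exact absurd (congrArg ChevalleyDatum.nroots h) (by decide +kernel)
  have hrange : ψ.range = commutator ↥(isometryGroup F (quadFormPlus 4 F)) := by
    apply le_antisymm
    · rintro _ ⟨z, rfl⟩
      exact map_mem_comm (stGrp_perfect chevD4 d4c6') ψ z
    · rw [hr]
      exact comm_leD4
  exact iso_final (G.thetaD F) G.thetaD_surj (G.thetaD_ker M hM) hs ψ hrange nonabD4

end Cfsg.Agent.Lib.Chev.Om
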