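import Cfsg.Agent.Lib.Chev.Om.Sie

/-!
Elimination in a quadratic space with a hyperbolic system: a subgroup containing enough Siegel
transformations is the whole group of isometries.
-/

set_option autoImplicit false
set_option linter.unusedSimpArgs false
set_option linter.unusedVariables false
set_option linter.unusedSectionVars false

namespace Cfsg.Agent.Lib.Chev.Om

variable {F : Type*} [Field F] {V : Type*} [AddCommGroup V] [Module F V]

/-- A hyperbolic system with anisotropic orthogonal complement. -/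
structure HSys (Q : V → F) (B : V → V → F) (m : ℕ) (e f : ℕ → V) : Prop where
  Qe : ∀ i, i < m → Q (e i) = 0
  Qf : ∀ i, i < m → Q (f i) = 0
  Bee : ∀ i j, i < m → j < m → B (e i) (e j) = 0
  Bff : ∀ i j, i < m → j < m → B (f i) (f j) = 0
  Bef : ∀ i j, i < m → j < m → B (e i) (f j) = if i = j then 1 else 0
  aniso : ∀ v, Q v = 0 → (∀ i, i < m → B (e i) v = 0 ∧ B (f i) v = 0) → v = 0

namespace OGp

variable {Q : V → F} {B : V → V → F} {O : Type*} [Group O] (G : OGp Q B O)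

/-- The pointwise fixer of the first `k` planes. -/
def Fx (e f : ℕ → V) (k : ℕ) : Subgroup O where
  carrier := {g | ∀ i, i < k → G.act g (e i) = e i ∧ G.act g (f i) = f i}
  mul_mem' {a b} ha hb i hi := by
    rw [G.act_mul, G.act_mul, (hb i hi).1, (hb i hi).2, (ha i hi).1, (ha i hi).2]
    exact ⟨rfl, rfl⟩
  one_mem' i _ := by
    rw [G.act_one, G.act_one]
    exact ⟨rfl, rfl⟩
  inv_mem' {a} ha i hi := by
    constructor
    · conv_lhs => rw [← (ha i hi).1]
      rw [G.act_inv_act]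
    · conv_lhs => rw [← (ha i hi).2]
      rw [G.act_inv_act]

theorem mem_Fx {e f : ℕ → V} {k : ℕ} {g : O} :
    g ∈ G.Fx e f k ↔ ∀ i, i < k → G.act g (e i) = e i ∧ G.act g (f i) = f i := Iff.rfl

variable {m : ℕ} {e f : ℕ → V} (Hs : HSys Q B m e f)
include G Hs

theorem Bfe (i j : ℕ) (hi : i < m) (hj : j < m) : B (f i) (e j) = if i = j then 1 else 0 := by
  rw [G.qs.symm, Hs.Bef j i hj hi]
  by_cases h : i = j
  · simp [h]
  · rw [if_neg h, if_neg (Ne.symm h)]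

theorem Sge_Fx {k : ℕ} (hk : k < m) {w : V} (hw : B (e k) w = 0)
    (hl : ∀ i, i < k → B (e i) w = 0 ∧ B (f i) w = 0) : G.Sg (e k) w ∈ G.Fx e f k := by
  intro i hi
  have hi' : i < m := hi.trans hk
  rw [G.Sg_apply (Hs.Qe k hk) hw, G.Sg_apply (Hs.Qe k hk) hw]
  refine ⟨Sf_fix G.qs (Hs.Bee i k hi' hk) (hl i hi).1, Sf_fix G.qs ?_ (hl i hi).2⟩
  rw [G.qs.symm, Hs.Bef k i hk hi', if_neg hi.ne']

theorem Sgf_Fx {k : ℕ} (hk : k < m) {w : V} (hw : B (f k) w = 0)
    (hl : ∀ i, i < k → B (e i) w = 0 ∧ B (f i) w = 0) : G.Sg (f k) w ∈ G.Fx e f k := by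
  intro i hi
  have hi' : i < m := hi.trans hk
  rw [G.Sg_apply (Hs.Qf k hk) hw, G.Sg_apply (Hs.Qf k hk) hw]
  refine ⟨Sf_fix G.qs ?_ (hl i hi).1, Sf_fix G.qs (Hs.Bff i k hi' hk) (hl i hi).2⟩
  rw [Hs.Bef i k hi' hk, if_neg hi.ne]

/-- The elimination. -/
theorem elim_top (H : Subgroup O)
    (hS : ∀ k w, k < m → (B (e k) w = 0 → G.Sg (e k) w ∈ H) ∧ (B (f k) w = 0 → G.Sg (f k) w ∈ H))
    (hpre : ∀ k v, k < m → Q v = 0 → v ≠ 0 → (∀ i, i < k → B (e i) v = 0 ∧ B (f i) v = 0) →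
      ∃ h ∈ H, h ∈ G.Fx e f k ∧ B (e k) (G.act h v) ≠ 0)
    (hscale : ∀ (k : ℕ) (a : F), k < m → a ≠ 0 → ∃ h ∈ H, h ∈ G.Fx e f k ∧ G.act h (a • f k) = f k)
    (hlast : G.Fx e f m ≤ H) : H = ⊤ := by
  have key : ∀ j, j ≤ m → G.Fx e f (m - j) ≤ H := by
    intro j
    induction j with
    | zero => intro _; simpa using hlast
    | succ j ih =>
      intro hj
      have ih' := ih (by omega)
      obtain ⟨k, hk⟩ : ∃ k, k = m - (j + 1) := ⟨_, rfl⟩
      rw [← hk]
      have hkm : k < m := by omega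
      have hk1 : m - j = k + 1 := by omega
      rw [hk1] at ih'
      intro g hg
      have hbef := Hs.Bef k k hkm hkm
      rw [if_pos rfl] at hbef
      have hbfe : B (f k) (e k) = 1 := by rw [G.qs.symm, hbef]
      have hQv : Q (G.act g (f k)) = 0 := by rw [G.Q_act, Hs.Qf k hkm]
      have hv0 : G.act g (f k) ≠ 0 := by
        intro h0
        have h1 := G.B_act g (e k) (f k)
        rw [h0, G.qs.zeroB', hbef] at h1
        exact zero_ne_one h1
      have hlow : ∀ i, i < k → B (e i) (G.act g (f k)) = 0 ∧ B (f i) (G.act g (f k)) = 0 := by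
        intro i hi
        have hi' := hi.trans hkm
        constructor
        · rw [← (hg i hi).1, G.B_act, Hs.Bef i k hi' hkm, if_neg hi.ne]
        · rw [← (hg i hi).2, G.B_act, Hs.Bff i k hi' hkm]
      obtain ⟨h₁, hh₁, hF₁, ha⟩ := hpre k _ hkm hQv hv0 hlow
      obtain ⟨v₁, hv₁⟩ : ∃ v₁, v₁ = G.act h₁ (G.act g (f k)) := ⟨_, rfl⟩
      rw [← hv₁] at ha
      obtain ⟨a, hadef⟩ : ∃ a, a = B (e k) v₁ := ⟨_, rfl⟩
      rw [← hadef] at ha
      have hQv₁ : Q v₁ = 0 := by rw [hv₁, G.Q_act, hQv]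
      have hlow₁ : ∀ i, i < k → B (e i) v₁ = 0 ∧ B (f i) v₁ = 0 := by
        intro i hi
        have h1 := (hF₁ i hi)
        constructor
        · rw [← h1.1, hv₁, G.B_act, (hlow i hi).1]
        · rw [← h1.2, hv₁, G.B_act, (hlow i hi).2]
      -- clear
      obtain ⟨w₁, hw₁⟩ : ∃ w₁, w₁ = a⁻¹ • (a • f k - v₁) := ⟨_, rfl⟩
      have hBw₁ : B (e k) w₁ = 0 := by
        rw [hw₁, G.qs.smulB', G.qs.subB', G.qs.smulB', hbef, ← hadef]
        ring
      have hlw₁ : ∀ i, i < k → B (e i) w₁ = 0 ∧ B (f i) w₁ = 0 := by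
        intro i hi
        have hi' := hi.trans hkm
        constructor
        · rw [hw₁, G.qs.smulB', G.qs.subB', G.qs.smulB', Hs.Bef i k hi' hkm, if_neg hi.ne, (hlow₁ i hi).1]
          ring
        · rw [hw₁, G.qs.smulB', G.qs.subB', G.qs.smulB', Hs.Bff i k hi' hkm, (hlow₁ i hi).2]
          ring
      have hε₁H : G.Sg (e k) w₁ ∈ H := (hS k w₁ hkm).1 hBw₁
      have hε₁F : G.Sg (e k) w₁ ∈ G.Fx e f k := G.Sge_Fx Hs hkm hBw₁ hlw₁
      have hε₁ : G.act (G.Sg (e k) w₁) v₁ = a • f k := by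
        rw [G.Sg_apply (Hs.Qe k hkm) hBw₁, hw₁]
        apply Sf_clear G.qs hQv₁ _ _ _ ha
        · rw [G.qs.smulQ, Hs.Qf k hkm, mul_zero]
        · rw [G.qs.symm, hadef]
        · rw [G.qs.smulB, hbfe, mul_one]
      obtain ⟨h₂, hh₂, hF₂, hs₂⟩ := hscale k a hkm ha
      -- the element fixing f k
      obtain ⟨g₁, hg₁⟩ : ∃ g₁, g₁ = h₂ * G.Sg (e k) w₁ * h₁ * g := ⟨_, rfl⟩
      have hg₁F : g₁ ∈ G.Fx e f k := by
        rw [hg₁]
        exact (G.Fx e f k).mul_mem ((G.Fx e f k).mul_mem ((G.Fx e f k).mul_mem hF₂ hε₁F) hF₁) hg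
      have hg₁f : G.act g₁ (f k) = f k := by
        rw [hg₁, G.act_mul, G.act_mul, G.act_mul, ← hv₁, hε₁, hs₂]
      have hQv₂ : Q (G.act g₁ (e k)) = 0 := by rw [G.Q_act, Hs.Qe k hkm]
      have hBv₂ : B (G.act g₁ (e k)) (f k) = 1 := by
        conv_lhs => rw [← hg₁f]
        rw [G.B_act, hbef]
      have hBv₂' : B (f k) (G.act g₁ (e k)) = 1 := by rw [G.qs.symm, hBv₂]
      have hlow₂ : ∀ i, i < k → B (e i) (G.act g₁ (e k)) = 0 ∧ B (f i) (G.act g₁ (e k)) = 0 := by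
        intro i hi
        have hi' := hi.trans hkm
        constructor
        · rw [← (hg₁F i hi).1, G.B_act, Hs.Bee i k hi' hkm]
        · rw [← (hg₁F i hi).2, G.B_act, G.Bfe Hs i k hi' hkm, if_neg hi.ne]
      obtain ⟨w₂, hw₂⟩ : ∃ w₂, w₂ = e k - G.act g₁ (e k) := ⟨_, rfl⟩
      have hBw₂ : B (f k) w₂ = 0 := by
        rw [hw₂, G.qs.subB', hbfe, hBv₂', sub_self]
      have hlw₂ : ∀ i, i < k → B (e i) w₂ = 0 ∧ B (f i) w₂ = 0 := by
        intro i hi
        have hi' := hi.trans hkm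
        constructor
        · rw [hw₂, G.qs.subB', Hs.Bee i k hi' hkm, (hlow₂ i hi).1, sub_zero]
        · rw [hw₂, G.qs.subB', G.Bfe Hs i k hi' hkm, if_neg hi.ne, (hlow₂ i hi).2, sub_zero]
      have hε₂H : G.Sg (f k) w₂ ∈ H := (hS k w₂ hkm).2 hBw₂
      have hε₂F : G.Sg (f k) w₂ ∈ G.Fx e f k := G.Sgf_Fx Hs hkm hBw₂ hlw₂
      have hε₂ : G.act (G.Sg (f k) w₂) (G.act g₁ (e k)) = e k := by
        rw [G.Sg_apply (Hs.Qf k hkm) hBw₂, hw₂]
        have h1 := Sf_clear G.qs (u := f k) (v := G.act g₁ (e k)) (v' := e k) (a := 1) hQv₂ (Hs.Qe k hkm) hBv₂ hbef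
          one_ne_zero
        simpa using h1
      have hε₂f : G.act (G.Sg (f k) w₂) (f k) = f k := by
        rw [G.Sg_apply (Hs.Qf k hkm) hBw₂]
        exact Sf_fix G.qs (Hs.Bff k k hkm hkm) hBw₂
      have hg₂ : G.Sg (f k) w₂ * g₁ ∈ G.Fx e f (k + 1) := by
        intro i hi
        rcases Nat.lt_succ_iff_lt_or_eq.mp hi with hi | rfl
        · exact ((G.Fx e f k).mul_mem hε₂F hg₁F) i hi
        · rw [G.act_mul, G.act_mul, hε₂, hg₁f, hε₂f]
          exact ⟨rfl, rfl⟩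
      have hg₂H := ih' hg₂
      have hfinal : g = (G.Sg (f k) w₂ * (h₂ * G.Sg (e k) w₁ * h₁))⁻¹ * (G.Sg (f k) w₂ * g₁) := by
        rw [hg₁]
        group
      rw [hfinal]
      exact H.mul_mem (H.inv_mem (H.mul_mem hε₂H (H.mul_mem (H.mul_mem hh₂ hε₁H) hh₁))) hg₂H
  have h0 := key m le_rfl
  rw [Nat.sub_self] at h0
  rw [eq_top_iff]
  intro g _
  apply h0
  intro i hi
  exact absurd hi (Nat.not_lt_zero i)

/-- The first reduction of a vector. -/
theorem pre_of {H : Subgroup O}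
    (hS : ∀ k w, k < m → (B (e k) w = 0 → G.Sg (e k) w ∈ H) ∧ (B (f k) w = 0 → G.Sg (f k) w ∈ H))
    (k : ℕ) (hk : k < m)
    (h0 : ∃ h ∈ H, h ∈ G.Fx e f k ∧ B (e k) (G.act h (e k)) ≠ 0)
    (v : V) (hQ : Q v = 0) (hv : v ≠ 0) (hl : ∀ i, i < k → B (e i) v = 0 ∧ B (f i) v = 0) :
    ∃ h ∈ H, h ∈ G.Fx e f k ∧ B (e k) (G.act h v) ≠ 0 := by
  have hbef := Hs.Bef k k hk hk
  rw [if_pos rfl] at hbef
  have hbfe : B (f k) (e k) = 1 := by rw [G.qs.symm, hbef]
  by_cases h1 : B (e k) v = 0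
  swap
  · exact ⟨1, H.one_mem, (G.Fx e f k).one_mem, by rwa [G.act_one]⟩
  have aux : ∀ x : V, Q x = 0 → B (f k) x = 0 → B (e k) x = 0 → (∀ i, i < k → B (e i) x = 0 ∧ B (f i) x = 0) →
      B x v ≠ 0 → ∃ h ∈ H, h ∈ G.Fx e f k ∧ B (e k) (G.act h v) ≠ 0 := by
    intro x hQx hfx hex hlx hxv
    have hw : B (f k) (-x) = 0 := by rw [G.qs.negB', hfx, neg_zero]
    refine ⟨G.Sg (f k) (-x), (hS k (-x) hk).2 hw, G.Sgf_Fx Hs hk hw ?_, ?_⟩
    · intro i hi
      rw [G.qs.negB', G.qs.negB', (hlx i hi).1, (hlx i hi).2]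
      simp
    · rw [G.Sg_apply (Hs.Qf k hk) hw, G.qs.symm, B_Sf_right G.qs, hbfe, G.qs.Q_neg, hQx, G.qs.negB', G.qs.negB,
        G.qs.symm v (e k), h1, G.qs.symm x (e k), hex, G.qs.symm v x]
      simpa using hxv
  by_cases h2 : ∃ j, k < j ∧ j < m ∧ (B (e j) v ≠ 0 ∨ B (f j) v ≠ 0)
  · obtain ⟨j, hkj, hjm, h3 | h3⟩ := h2
    · apply aux (e j) (Hs.Qe j hjm) _ (Hs.Bee k j hk hjm) _ h3
      · rw [G.Bfe Hs k j hk hjm, if_neg hkj.ne]
      · intro i hi
        have hi' := hi.trans hk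
        rw [Hs.Bee i j hi' hjm, G.Bfe Hs i j hi' hjm, if_neg (hi.trans hkj).ne]
        exact ⟨rfl, rfl⟩
    · apply aux (f j) (Hs.Qf j hjm) (Hs.Bff k j hk hjm) _ _ h3
      · rw [Hs.Bef k j hk hjm, if_neg hkj.ne]
      · intro i hi
        have hi' := hi.trans hk
        rw [Hs.Bff i j hi' hjm, Hs.Bef i j hi' hjm, if_neg (hi.trans hkj).ne]
        exact ⟨rfl, rfl⟩
  · push Not at h2
    obtain ⟨α, hα⟩ : ∃ α, α = B (f k) v := ⟨_, rfl⟩
    have hform : v - α • e k = 0 := by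
      apply Hs.aniso
      · rw [sub_eq_add_neg, G.qs.add, G.qs.Q_neg, G.qs.smulQ, Hs.Qe k hk, hQ, G.qs.negB', G.qs.smulB', G.qs.symm v,
          h1]
        ring
      · intro i hi
        rw [G.qs.subB', G.qs.subB', G.qs.smulB', G.qs.smulB', Hs.Bee i k hi hk, G.Bfe Hs i k hi hk]
        rcases lt_trichotomy i k with h3 | h3 | h3
        · rw [if_neg h3.ne, (hl i h3).1, (hl i h3).2]
          simp
        · subst h3
          rw [if_pos rfl, h1, ← hα]
          simp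
        · rw [if_neg h3.ne', (h2 i h3 hi).1, (h2 i h3 hi).2]
          simp
    have hv' : v = α • e k := sub_eq_zero.mp hform
    have hα0 : α ≠ 0 := by
      intro h3
      rw [h3, zero_smul] at hv'
      exact hv hv'
    obtain ⟨h, hH, hF, hne⟩ := h0
    refine ⟨h, hH, hF, ?_⟩
    rw [hv', map_smul, G.qs.smulB']
    exact mul_ne_zero hα0 hne

/-- A vector of non-zero norm gives the first reduction for `e k`. -/
theorem h0_of_aux {H : Subgroup O}
    (hS : ∀ k w, k < m → (B (e k) w = 0 → G.Sg (e k) w ∈ H) ∧ (B (f k) w = 0 → G.Sg (f k) w ∈ H))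
    (k : ℕ) (hk : k < m) (w : V) (h1 : Q w ≠ 0) (h2 : B (f k) w = 0) (h3 : B (e k) w = 0)
    (hl : ∀ i, i < k → B (e i) w = 0 ∧ B (f i) w = 0) :
    ∃ h ∈ H, h ∈ G.Fx e f k ∧ B (e k) (G.act h (e k)) ≠ 0 := by
  refine ⟨G.Sg (f k) w, (hS k w hk).2 h2, G.Sgf_Fx Hs hk h2 hl, ?_⟩
  have hbef := Hs.Bef k k hk hk
  rw [if_pos rfl] at hbef
  have hbfe : B (f k) (e k) = 1 := by rw [G.qs.symm, hbef]
  rw [G.Sg_apply (Hs.Qf k hk) h2, G.qs.symm, B_Sf_right G.qs, hbef, hbfe, h3, G.qs.symm w (e k), h3,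
    Hs.Bee k k hk hk]
  simpa using h1

/-- Scaling in a plane with the help of another plane. -/
theorem scale_of_lt {H : Subgroup O}
    (hS : ∀ k w, k < m → (B (e k) w = 0 → G.Sg (e k) w ∈ H) ∧ (B (f k) w = 0 → G.Sg (f k) w ∈ H))
    (k l : ℕ) (hkl : k < l) (hl : l < m) (a : F) (ha : a ≠ 0) :
    ∃ h ∈ H, h ∈ G.Fx e f k ∧ G.act h (a • f k) = f k := by
  have hk : k < m := hkl.trans hl
  have hbef := Hs.Bef k k hk hk
  rw [if_pos rfl] at hbef
  have hbfe : B (f k) (e k) = 1 := by rw [G.qs.symm, hbef]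
  have hbef' := Hs.Bef l l hl hl
  rw [if_pos rfl] at hbef'
  have hbfe' : B (f l) (e l) = 1 := by rw [G.qs.symm, hbef']
  have hekfl : B (e k) (f l) = 0 := by rw [Hs.Bef k l hk hl, if_neg hkl.ne]
  have hfkel : B (f k) (e l) = 0 := by rw [G.Bfe Hs k l hk hl, if_neg hkl.ne]
  have hfkfl : B (f k) (f l) = 0 := Hs.Bff k l hk hl
  have hflfk : B (f l) (f k) = 0 := Hs.Bff l k hl hk
  have hflek : B (f l) (e k) = 0 := by rw [G.Bfe Hs l k hl hk, if_neg hkl.ne']
  have hQfl : Q (f l) = 0 := Hs.Qf l hl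
  have hQel : Q (e l) = 0 := Hs.Qe l hl
  have hQfk : Q (f k) = 0 := Hs.Qf k hk
  have hQek : Q (e k) = 0 := Hs.Qe k hk
  have hfkfk : B (f k) (f k) = 0 := Hs.Bff k k hk hk
  have hflfl : B (f l) (f l) = 0 := Hs.Bff l l hl hl
  have hfkel' : B (e l) (f k) = 0 := by rw [G.qs.symm, hfkel]
  obtain ⟨s, hs⟩ : ∃ s : F, a * s = 1 - a := ⟨a⁻¹ * (1 - a), by field_simp⟩
  have w1 : ∀ c : F, B (e k) (c • f l) = 0 := fun c => by rw [G.qs.smulB', hekfl, mul_zero]
  have w2 : B (f k) ((-1 : F) • e l) = 0 := by rw [G.qs.smulB', hfkel, mul_zero]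
  have l1 : ∀ c : F, ∀ i, i < k → B (e i) (c • f l) = 0 ∧ B (f i) (c • f l) = 0 := by
    intro c i hi
    have hi' := hi.trans hk
    rw [G.qs.smulB', G.qs.smulB', Hs.Bef i l hi' hl, if_neg (hi.trans hkl).ne, Hs.Bff i l hi' hl]
    simp
  have l2 : ∀ i, i < k → B (e i) ((-1 : F) • e l) = 0 ∧ B (f i) ((-1 : F) • e l) = 0 := by
    intro i hi
    have hi' := hi.trans hk
    rw [G.qs.smulB', G.qs.smulB', Hs.Bee i l hi' hl, G.Bfe Hs i l hi' hl, if_neg (hi.trans hkl).ne]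
    simp
  refine ⟨G.Sg (e k) ((a - 1) • f l) * G.Sg (f k) ((-1 : F) • e l) * G.Sg (e k) (s • f l),
    H.mul_mem (H.mul_mem ((hS k _ hk).1 (w1 _)) ((hS k _ hk).2 w2)) ((hS k _ hk).1 (w1 _)),
    (G.Fx e f k).mul_mem ((G.Fx e f k).mul_mem (G.Sge_Fx Hs hk (w1 _) (l1 _)) (G.Sgf_Fx Hs hk w2 l2))
      (G.Sge_Fx Hs hk (w1 _) (l1 _)), ?_⟩
  rw [G.act_mul, G.act_mul, G.Sg_apply hQek (w1 _), G.Sg_apply (Hs.Qf k hk) w2, G.Sg_apply hQek (w1 _)]
  have e1 : Sf Q B (e k) (s • f l) (a • f k) = a • f k + (1 - a) • f l := by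
    unfold Sf
    rw [G.qs.smulB, hbfe, G.qs.smulQ, hQfl, G.qs.smulB, G.qs.smulB', hfkfl, smul_smul, mul_one, hs]
    simp
  have e2 : Sf Q B (f k) ((-1 : F) • e l) (a • f k + (1 - a) • f l) = f k + (1 - a) • f l := by
    unfold Sf
    rw [G.qs.addB, G.qs.smulB, G.qs.smulB, hfkfk, hflfk, G.qs.smulQ, hQel, G.qs.addB, G.qs.smulB,
      G.qs.smulB, G.qs.smulB', G.qs.smulB', hfkel, hbfe']
    have e3 : ((a * (-1 * 0) + (1 - a) * (-1 * 1) + -1 * -1 * 0 * (a * 0 + (1 - a) * 0))) = a - 1 := by ring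
    rw [e3]
    simp only [mul_zero, add_zero, zero_smul, sub_smul, one_smul]
    abel
  have e4 : Sf Q B (e k) ((a - 1) • f l) (f k + (1 - a) • f l) = f k := by
    unfold Sf
    rw [G.qs.addB, G.qs.smulB, hbfe, hflek, G.qs.smulQ, hQfl, G.qs.addB, G.qs.smulB', G.qs.smulB', hfkfl,
      G.qs.smulB, hflfl]
    simp only [mul_zero, add_zero, zero_mul, zero_smul, sub_zero, mul_one]
    have : (1 - a) + (a - 1) = 0 := by ring
    rw [one_smul, add_assoc, ← add_smul, this, zero_smul, add_zero]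
  rw [e1, e2, e4]

end OGp

/-! ### Plane rotations and reflections -/

section Rot

variable {Q : V → F} {B : V → V → F}

/-- Rotation of a hyperbolic plane. -/
def rotF (B : V → V → F) (e f : V) (a : F) (v : V) : V :=
  v + ((a - 1) * B v f) • e + ((a⁻¹ - 1) * B v e) • f

/-- Reflection in a vector. -/
def reflF (Q : V → F) (B : V → V → F) (w v : V) : V := v - (B v w / Q w) • w

variable (S : QSys Q B)
include S

theorem rotF_add (e f : V) (a : F) (x y : V) : rotF B e f a (x + y) = rotF B e f a x + rotF B e f a y := by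
  unfold rotF
  rw [S.addB, S.addB, mul_add, mul_add, add_smul, add_smul]
  abel

theorem rotF_smul (e f : V) (a c : F) (x : V) : rotF B e f a (c • x) = c • rotF B e f a x := by
  unfold rotF
  rw [S.smulB, S.smulB, smul_add, smul_add, smul_smul, smul_smul]
  congr 2
  · ring_nf
  · ring_nf

theorem rotF_Q {e f : V} {a : F} (ha : a ≠ 0) (he : Q e = 0) (hf : Q f = 0) (hef : B e f = 1) (v : V) :
    Q (rotF B e f a v) = Q v := by
  unfold rotF
  rw [S.add, S.add, S.smulQ, S.smulQ, he, hf, S.smulB', S.smulB', S.addB, S.smulB, hef]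
  have h1 : a⁻¹ * a = 1 := inv_mul_cancel₀ ha
  linear_combination (B v f * B v e) * h1

theorem rotF_e {e f : V} {a : F} (he : Q e = 0) (hf : Q f = 0) (hef : B e f = 1) :
    rotF B e f a e = a • e := by
  have hee : B e e = 0 := by rw [S.self, he, mul_zero]
  unfold rotF
  rw [hee, hef]
  simp only [mul_one, mul_zero, zero_smul, add_zero, sub_smul, one_smul]
  abel

theorem rotF_f {e f : V} {a : F} (he : Q e = 0) (hf : Q f = 0) (hef : B e f = 1) :
    rotF B e f a f = a⁻¹ • f := by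
  have hff : B f f = 0 := by rw [S.self, hf, mul_zero]
  have hfe : B f e = 1 := by rw [S.symm, hef]
  unfold rotF
  rw [hff, hfe]
  simp only [mul_one, mul_zero, zero_smul, add_zero, sub_smul, one_smul]
  abel

theorem rotF_fix {e f x : V} {a : F} (h1 : B x e = 0) (h2 : B x f = 0) : rotF B e f a x = x := by
  unfold rotF
  simp [h1, h2]

theorem rotF_rotF {e f : V} {a b : F} (he : Q e = 0) (hf : Q f = 0) (hef : B e f = 1) (v : V) :
    rotF B e f a (rotF B e f b v) = rotF B e f (a * b) v := by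
  have hee : B e e = 0 := by rw [S.self, he, mul_zero]
  have hff : B f f = 0 := by rw [S.self, hf, mul_zero]
  have hfe : B f e = 1 := by rw [S.symm, hef]
  have e1 : B (rotF B e f b v) f = b * B v f := by
    unfold rotF
    rw [S.addB, S.addB, S.smulB, S.smulB, hef, hff]
    ring
  have e2 : B (rotF B e f b v) e = b⁻¹ * B v e := by
    unfold rotF
    rw [S.addB, S.addB, S.smulB, S.smulB, hee, hfe]
    ring
  have e3 : ∀ x, rotF B e f a x = x + ((a - 1) * B x f) • e + ((a⁻¹ - 1) * B x e) • f := fun _ => rfl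
  rw [e3 (rotF B e f b v), e1, e2]
  unfold rotF
  have e4 : (a * b - 1) * B v f = (b - 1) * B v f + (a - 1) * (b * B v f) := by ring
  have e5 : ((a * b)⁻¹ - 1) * B v e = (b⁻¹ - 1) * B v e + (a⁻¹ - 1) * (b⁻¹ * B v e) := by
    rw [mul_inv]
    ring
  rw [e4, e5, add_smul, add_smul]
  abel

theorem reflF_add (w x y : V) : reflF Q B w (x + y) = reflF Q B w x + reflF Q B w y := by
  unfold reflF
  rw [S.addB, add_div, add_smul]
  abel

theorem reflF_smul (w : V) (c : F) (x : V) : reflF Q B w (c • x) = c • reflF Q B w x := by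
  unfold reflF
  rw [S.smulB, smul_sub, smul_smul, mul_div_assoc]

theorem reflF_Q {w : V} (hw : Q w ≠ 0) (v : V) : Q (reflF Q B w v) = Q v := by
  unfold reflF
  rw [sub_eq_add_neg, S.add, S.Q_neg, S.smulQ, S.negB', S.smulB']
  field_simp
  ring

theorem reflF_reflF {w : V} (hw : Q w ≠ 0) (v : V) : reflF Q B w (reflF Q B w v) = v := by
  have e1 : B (reflF Q B w v) w = - B v w := by
    unfold reflF
    rw [S.subB, S.smulB, S.self]
    field_simp
    ring
  have e3 : ∀ x, reflF Q B w x = x - (B x w / Q w) • w := fun _ => rfl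
  rw [e3 (reflF Q B w v), e1]
  unfold reflF
  rw [neg_div, neg_smul]
  abel

end Rot

namespace OGp

variable {Q : V → F} {B : V → V → F} {O : Type*} [Group O] (G : OGp Q B O)

theorem exists_rot {e f : V} {a : F} (ha : a ≠ 0) (he : Q e = 0) (hf : Q f = 0) (hef : B e f = 1) :
    ∃ g : O, ∀ v, G.act g v = rotF B e f a v := by
  apply G.exists_of (rotF B e f a) (rotF B e f a⁻¹) (rotF_add G.qs e f a) (rotF_smul G.qs e f a)
    (rotF_add G.qs e f a⁻¹) (rotF_smul G.qs e f a⁻¹) (rotF_Q G.qs ha he hf hef)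
  · intro v
    rw [rotF_rotF G.qs he hf hef, mul_inv_cancel₀ ha]
    unfold rotF
    simp
  · intro v
    rw [rotF_rotF G.qs he hf hef, inv_mul_cancel₀ ha]
    unfold rotF
    simp

theorem exists_refl {w : V} (hw : Q w ≠ 0) : ∃ g : O, ∀ v, G.act g v = reflF Q B w v :=
  G.exists_of (reflF Q B w) (reflF Q B w) (reflF_add G.qs w) (reflF_smul G.qs w)
    (reflF_add G.qs w) (reflF_smul G.qs w) (reflF_Q G.qs hw) (reflF_reflF G.qs hw) (reflF_reflF G.qs hw)

end OGp

/-! ### Commutators -/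

open scoped commutatorElement

theorem comm_le_of {H : Type*} [Group H] (E : Subgroup H) (T : Set H) (hinv : ∀ t ∈ T, t⁻¹ ∈ T)
    (hn : ∀ t ∈ T, ∀ x ∈ E, t * x * t⁻¹ ∈ E) (hc : ∀ s ∈ T, ∀ t ∈ T, s * t * s⁻¹ * t⁻¹ ∈ E)
    (htop : E ⊔ Subgroup.closure T = ⊤) : commutator H ≤ E := by
  have hnorm : E.Normal := by
    rw [← Subgroup.normalizer_eq_top_iff, eq_top_iff, ← htop, sup_le_iff]
    constructor
    · exact Subgroup.le_normalizer
    · rw [Subgroup.closure_le]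
      intro t ht
      rw [SetLike.mem_coe, Subgroup.mem_normalizer_iff]
      intro h
      constructor
      · exact hn t ht h
      · intro h1
        have h2 := hn t⁻¹ (hinv t ht) _ h1
        have e : t⁻¹ * (t * h * t⁻¹) * t⁻¹⁻¹ = h := by group
        rwa [e] at h2
  let π := QuotientGroup.mk' E
  have hsurj : Function.Surjective π := QuotientGroup.mk'_surjective E
  have hC : Subgroup.closure (π '' T) = ⊤ := by
    rw [← MonoidHom.map_closure, ← Subgroup.map_top_of_surjective π hsurj, ← htop, Subgroup.map_sup]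
    have : E.map π = ⊥ := by
      rw [Subgroup.map_eq_bot_iff, QuotientGroup.ker_mk']
    rw [this, bot_sup_eq]
  have hcomm : ∀ x y : H ⧸ E, x * y = y * x := by
    have h1 : Subgroup.closure (π '' T) ≤ Subgroup.centralizer (π '' T) := by
      rw [Subgroup.closure_le]
      rintro _ ⟨s, hs, rfl⟩
      rw [SetLike.mem_coe, Subgroup.mem_centralizer_iff]
      rintro _ ⟨t, ht, rfl⟩
      have h2 := hc t ht s hs
      have h3 : π (t * s * t⁻¹ * s⁻¹) = 1 := by
        rw [← MonoidHom.mem_ker, QuotientGroup.ker_mk']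
        exact h2
      rw [map_mul, map_mul, map_mul, map_inv, map_inv, mul_inv_eq_one, mul_inv_eq_iff_eq_mul] at h3
      exact h3
    have h2 : (π '' T : Set (H ⧸ E)) ⊆ Subgroup.centralizer (Subgroup.closure (π '' T) : Set (H ⧸ E)) := by
      intro s hs
      rw [SetLike.mem_coe, Subgroup.mem_centralizer_iff]
      intro h hh
      have h4 := h1 hh
      rw [Subgroup.mem_centralizer_iff] at h4
      exact (h4 s hs).symm
    have h3 : Subgroup.closure (π '' T) ≤ Subgroup.centralizer (Subgroup.closure (π '' T) : Set (H ⧸ E)) :=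
      (Subgroup.closure_le _).2 h2
    rw [hC] at h3
    intro x y
    have h4 := h3 (Subgroup.mem_top x)
    rw [Subgroup.mem_centralizer_iff] at h4
    have h5 := h4 y (by simp)
    exact h5.symm
  rw [commutator_def, Subgroup.commutator_le]
  intro g _ h _
  have h6 : π ⁅g, h⁆ = 1 := by
    rw [commutatorElement_def, map_mul, map_mul, map_mul, map_inv, map_inv, mul_inv_eq_one, mul_inv_eq_iff_eq_mul]
    exact hcomm _ _
  rw [← MonoidHom.mem_ker, QuotientGroup.ker_mk'] at h6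
  exact h6

end Cfsg.Agent.Lib.Chev.Om
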