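import Cfsg.Prelude.Def_Steinberg
import Cfsg.Prelude.Def_Classical

/-!
The universal property of Steinberg's presentation, and the passage from a homomorphism of the
presented group onto the commutator subgroup of an isometry group to the isomorphism with
the projective group.
-/

set_option autoImplicit false
set_option linter.unusedSimpArgs false
set_option linter.unusedVariables false
set_option linter.unusedSectionVars false

namespace Cfsg.Agent.Lib.Chev.Om

open Cfsg Cfsg.Lie

section Lift

variable (D : ChevalleyDatum) {K : Type*} [Field K] {O : Type*} [Group O] (xt : ℕ → K → O)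

/-- The element attached to a word. -/
def wT (w : List (ℕ × K)) : O := (w.map fun p => xt p.1 p.2).prod

theorem wT_nil : wT xt [] = 1 := rfl

theorem wT_cons (a : ℕ × K) (w : List (ℕ × K)) : wT xt (a :: w) = xt a.1 a.2 * wT xt w := by
  simp [wT]

theorem wT_append (w w' : List (ℕ × K)) : wT xt (w ++ w') = wT xt w * wT xt w' := by
  simp [wT, List.prod_append]

/-- The universal property. -/
theorem stLift_exists (h0 : ∀ r t, D.nroots ≤ r → xt r t = 1)
    (R1 : ∀ r t u, r < D.nroots → xt r t * xt r u = xt r (t + u))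
    (R2 : ∀ r s t u, r < D.nroots → s < D.nroots → s ≠ r → s ≠ D.neg r →
      xt s u * xt r t = xt r t * xt s u * wT xt (D.commWord K r s t u))
    (R3 : ∀ r t u, r < D.nroots → t ≠ 0 → u ≠ 0 →
      wT xt (D.hWord r t) * wT xt (D.hWord r u) = wT xt (D.hWord r (t * u))) :
    ∃ ψ : D.SteinbergGroup K →* O, ∀ r t, ψ (D.stGen K r t) = xt r t := by
  let f : Fin D.nroots × K → O := fun p => xt p.1 p.2
  have h1 : ∀ r t, FreeGroup.lift f (D.stX r t) = xt r t := by
    intro r t
    unfold ChevalleyDatum.stX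
    by_cases hr : r < D.nroots
    · rw [dif_pos hr, FreeGroup.lift_apply_of]
    · rw [dif_neg hr, map_one, h0 r t (not_lt.mp hr)]
  have h2 : ∀ w, FreeGroup.lift f (D.stWord w) = wT xt w := by
    intro w
    induction w with
    | nil => simp [ChevalleyDatum.stWord, wT]
    | cons a w ih =>
      simp only [ChevalleyDatum.stWord, wT, List.map_cons, List.prod_cons, map_mul] at ih ⊢
      rw [ih, h1]
  have hrels : ∀ r ∈ D.steinbergRels K, FreeGroup.lift f r = 1 := by
    rintro g ((⟨r, t, u, hr, rfl⟩ | ⟨r, s, t, u, hr, hs, h3, h4, rfl⟩) | ⟨r, t, u, hr, ht, hu, rfl⟩)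
    · rw [map_mul, map_mul, map_inv, h1, h1, h1, mul_inv_eq_one, R1 r t u hr]
    · simp only [map_mul, map_inv, h1, h2, mul_inv_eq_one]
      have h5 := R2 r s t u hr hs h3 h4
      calc (xt s u)⁻¹ * (xt r t)⁻¹ * xt s u * xt r t
          = (xt s u)⁻¹ * (xt r t)⁻¹ * (xt s u * xt r t) := by group
        _ = _ := by rw [h5]; group
    · simp only [ChevalleyDatum.stH, map_mul, map_inv, h2, mul_inv_eq_one]
      exact R3 r t u hr ht hu
  refine ⟨PresentedGroup.toGroup hrels, ?_⟩
  intro r t
  have h3 : D.stGen K r t = PresentedGroup.mk (D.steinbergRels K) (D.stX r t) := rfl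
  rw [h3]
  show FreeGroup.lift f (D.stX r t) = _
  exact h1 r t

/-- The presented group is generated by the root elements. -/
theorem stGen_closure : Subgroup.closure (Set.range fun p : Fin D.nroots × K => D.stGen K p.1 p.2) = ⊤ := by
  have h1 := PresentedGroup.closure_range_of (D.steinbergRels K)
  convert h1 using 2
  ext z
  constructor
  · rintro ⟨p, rfl⟩
    refine ⟨p, ?_⟩
    show PresentedGroup.mk (D.steinbergRels K) (FreeGroup.of p) = D.stGen K p.1 p.2
    unfold ChevalleyDatum.stGen ChevalleyDatum.stX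
    rw [dif_pos p.1.isLt]
  · rintro ⟨p, rfl⟩
    refine ⟨p, ?_⟩
    show D.stGen K p.1 p.2 = PresentedGroup.mk (D.steinbergRels K) (FreeGroup.of p)
    unfold ChevalleyDatum.stGen ChevalleyDatum.stX
    rw [dif_pos p.1.isLt]

end Lift

section Final

/-- The abstract isomorphism. -/
theorem iso_final {Gb G₀ O : Type*} [Group Gb] [Group G₀] [Group O] (θ : Gb →* G₀) (hθ : Function.Surjective θ)
    (hker : θ.ker = Subgroup.center Gb) (hs : IsSimpleGroup G₀) (ψ : Gb →* O) (hψ : ψ.range = commutator O)
    (hnc : ∃ a ∈ commutator O, ∃ b ∈ commutator O, a * b ≠ b * a) :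
    Nonempty (G₀ ≃* (↥(commutator O) ⧸ Subgroup.center ↥(commutator O))) := by
  -- the map to the commutator subgroup
  have hmem : ∀ z, ψ z ∈ commutator O := fun z => by
    rw [← hψ]
    exact ⟨z, rfl⟩
  let ψ' : Gb →* ↥(commutator O) := ψ.codRestrict _ hmem
  have hψ' : Function.Surjective ψ' := by
    rintro ⟨x, hx⟩
    rw [← hψ] at hx
    obtain ⟨y, rfl⟩ := hx
    exact ⟨y, rfl⟩
  let ρ : Gb →* (↥(commutator O) ⧸ Subgroup.center ↥(commutator O)) :=
    (QuotientGroup.mk' (Subgroup.center ↥(commutator O))).comp ψ'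
  have hρ : Function.Surjective ρ := (QuotientGroup.mk'_surjective _).comp hψ'
  have hle : θ.ker ≤ ρ.ker := by
    rw [hker]
    intro z hz
    rw [MonoidHom.mem_ker]
    show QuotientGroup.mk' _ (ψ' z) = 1
    rw [← MonoidHom.mem_ker, QuotientGroup.ker_mk', Subgroup.mem_center_iff]
    intro x
    obtain ⟨y, rfl⟩ := hψ' x
    rw [← map_mul, ← map_mul, (Subgroup.mem_center_iff.mp hz) y]
  -- the map on the simple group
  let κ : G₀ ≃* (Gb ⧸ θ.ker) := (QuotientGroup.quotientKerEquivOfSurjective θ hθ).symm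
  let l : (Gb ⧸ θ.ker) →* (↥(commutator O) ⧸ Subgroup.center ↥(commutator O)) :=
    QuotientGroup.lift θ.ker ρ hle
  let ρb : G₀ →* (↥(commutator O) ⧸ Subgroup.center ↥(commutator O)) := l.comp κ.toMonoidHom
  have hρb : Function.Surjective ρb := by
    intro y
    obtain ⟨z, rfl⟩ := hρ y
    refine ⟨κ.symm (QuotientGroup.mk z), ?_⟩
    show l (κ (κ.symm (QuotientGroup.mk z))) = ρ z
    rw [MulEquiv.apply_symm_apply]
    rfl
  have hn : ρb.ker.Normal := inferInstance
  rcases hs.eq_bot_or_eq_top_of_normal ρb.ker hn with h | h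
  · have hinj : Function.Injective ρb := (MonoidHom.ker_eq_bot_iff ρb).mp h
    exact ⟨MulEquiv.ofBijective ρb ⟨hinj, hρb⟩⟩
  · exfalso
    obtain ⟨a, ha, b, hb, hab⟩ := hnc
    apply hab
    have htriv : ∀ y : (↥(commutator O) ⧸ Subgroup.center ↥(commutator O)), y = 1 := by
      intro y
      obtain ⟨z, rfl⟩ := hρb y
      have : z ∈ ρb.ker := by rw [h]; trivial
      exact this
    have h1 : (⟨a, ha⟩ : ↥(commutator O)) ∈ Subgroup.center ↥(commutator O) := by
      rw [← QuotientGroup.ker_mk' (Subgroup.center ↥(commutator O)), MonoidHom.mem_ker]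
      exact htriv _
    have h2 := (Subgroup.mem_center_iff.mp h1) ⟨b, hb⟩
    have h3 := congrArg Subtype.val h2
    exact h3.symm

end Final

end Cfsg.Agent.Lib.Chev.Om
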