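import Cfsg.Agent.Lib.Chev.Checks
import Cfsg.Agent.Lib.Chev.Om.Elim
import Cfsg.Agent.Lib.Chev.Om.Lift

/-!
A symbolic engine for words in Siegel transformations attached to a table of basis vectors.
-/

set_option autoImplicit false
set_option linter.unusedSimpArgs false
set_option linter.unusedVariables false
set_option linter.unusedSectionVars false

namespace Cfsg.Agent.Lib.Chev.Om

open Cfsg Cfsg.Lie

/-- The tables of a quadratic module with root data. -/
structure MT where
  dim : ℕ
  bet : ℕ → ℕ → ℤ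
  kap : ℕ → ℤ
  xx : ℕ → ℕ
  yy : ℕ → ℕ
  ss : ℕ → ℤ

/-- The column of a Siegel transformation with polynomial parameter. -/
def colS (M : MT) (r : ℕ) (p : List Mo) (k : ℕ) : List Tm :=
  (k, 1, 0, 0) :: ((p.map fun m => (M.yy r, M.ss r * M.bet k (M.xx r) * m.1, m.2.1, m.2.2)) ++
    (p.map fun m => (M.xx r, - (M.ss r * M.bet k (M.yy r)) * m.1, m.2.1, m.2.2)) ++
    ((polyPow p 2).map fun m =>
      (M.xx r, - (M.ss r * M.ss r * M.kap (M.yy r) * M.bet k (M.xx r)) * m.1, m.2.1, m.2.2)))

/-- Apply a letter to a list of terms. -/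
def applyS (M : MT) (r : ℕ) (p : List Mo) (L : List Tm) : List Tm :=
  L.flatMap fun τ => (colS M r p τ.1).map (tmMul (τ.2.1, τ.2.2.1, τ.2.2.2))

/-- Apply a word to a list of terms. -/
def applyWS (M : MT) : List (ℕ × List Mo) → List Tm → List Tm
  | [], L => L
  | a :: w, L => canon (applyS M a.1 a.2 (applyWS M w L))

section Sem

variable {F : Type*} [Field F] {W : Type*} [AddCommGroup W] [Module F W]

/-- The vector of a list of terms. -/
def VB (bas : ℕ → W) (t u : F) (L : List Tm) : W := (L.map fun τ => tmVal t u τ • bas τ.1).sum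

variable (bas : ℕ → W)

@[simp] theorem VB_nil (t u : F) : VB bas t u [] = 0 := rfl

theorem VB_cons (t u : F) (τ : Tm) (L : List Tm) :
    VB bas t u (τ :: L) = tmVal t u τ • bas τ.1 + VB bas t u L := by
  simp [VB]

theorem VB_append (t u : F) (L L' : List Tm) : VB bas t u (L ++ L') = VB bas t u L + VB bas t u L' := by
  simp [VB, List.map_append, List.sum_append]

theorem VB_flatMap {α : Type*} (t u : F) (l : List α) (f : α → List Tm) :
    VB bas t u (l.flatMap f) = (l.map fun a => VB bas t u (f a)).sum := by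
  induction l with
  | nil => simp
  | cons a tl ih => simp [VB_append, ih]

theorem VB_single (t u : F) (k : ℕ) : VB bas t u [(k, 1, 0, 0)] = bas k := by
  simp [VB, tmVal, moVal]

theorem VB_map_tmMul (t u : F) (m : Mo) (L : List Tm) :
    VB bas t u (L.map (tmMul m)) = moVal t u m • VB bas t u L := by
  induction L with
  | nil => simp
  | cons a tl ih =>
    simp only [List.map_cons, VB_cons, ih, smul_add, smul_smul]
    rw [tmVal_mul]
    rfl

theorem VB_tmIns (t u : F) (τ : Tm) (L : List Tm) : VB bas t u (tmIns τ L) = VB bas t u (τ :: L) := by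
  induction L with
  | nil => rfl
  | cons σ L ih =>
    rw [tmIns]
    split_ifs with h h2
    · simp only [Bool.and_eq_true] at h
      obtain ⟨h1, h2, h3⟩ := h
      have h1 := Nat.eq_of_beq_eq_true h1
      have h2 := Nat.eq_of_beq_eq_true h2
      have h3 := Nat.eq_of_beq_eq_true h3
      simp only [VB_cons]
      rw [← add_assoc, h1, ← add_smul]
      congr 2
      simp only [tmVal, moVal, Int.cast_add, h2, h3]
      ring
    · rfl
    · simp only [VB_cons] at ih ⊢
      rw [ih]
      abel

theorem VB_foldr (t u : F) (L : List Tm) : VB bas t u (L.foldr tmIns []) = VB bas t u L := by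
  induction L with
  | nil => rfl
  | cons a tl ih =>
    simp only [List.foldr_cons]
    rw [VB_tmIns, VB_cons, VB_cons, ih]

theorem VB_filter (t u : F) (L : List Tm) :
    VB bas t u (L.filter fun τ => τ.2.1 != 0) = VB bas t u L := by
  induction L with
  | nil => rfl
  | cons a tl ih =>
    by_cases h : a.2.1 = 0
    · have : (a.2.1 != 0) = false := by simp [h]
      rw [List.filter_cons_of_neg (by simp [h]), ih, VB_cons]
      simp [tmVal, moVal, h]
    · rw [List.filter_cons_of_pos (by simp [h]), VB_cons, VB_cons, ih]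

theorem VB_canon (t u : F) (L : List Tm) : VB bas t u (canon L) = VB bas t u L := by
  rw [canon, VB_filter, VB_foldr]

theorem VB_lau {t u : F} (h : t * u = 1) (L : List Tm) : VB bas t u (L.map tmLau) = VB bas t u L := by
  induction L with
  | nil => rfl
  | cons a tl ih =>
    simp only [List.map_cons, VB_cons, ih, tmVal_lau h]
    rfl

theorem VB_nf {t u : F} (lau : Bool) (h : lau = true → t * u = 1) (L : List Tm) :
    VB bas t u (nf lau L) = VB bas t u L := by
  unfold nf
  split_ifs with hl
  · rw [VB_canon, VB_lau bas (h hl)]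
  · exact VB_canon bas t u L

theorem map_VB (A : W →ₗ[F] W) (t u : F) (L : List Tm) :
    A (VB bas t u L) = (L.map fun τ => tmVal t u τ • A (bas τ.1)).sum := by
  induction L with
  | nil => simp
  | cons a tl ih =>
    rw [VB_cons, map_add, map_smul, ih]
    simp

end Sem

section Rep

variable {F : Type*} [Field F] {W : Type*} [AddCommGroup W] [Module F W]
variable {Q : W → F} {B : W → W → F} {O : Type*} [Group O] (G : OGp Q B O) (M : MT) (bas : ℕ → W)

/-- The basis vectors realise the tables. -/
structure Rep (Q : W → F) (B : W → W → F) (M : MT) (bas : ℕ → W) : Prop where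
  hB : ∀ a b, B (bas a) (bas b) = ((M.bet a b : ℤ) : F)
  hQ : ∀ a, Q (bas a) = ((M.kap a : ℤ) : F)

/-- The root element. -/
noncomputable def xO (r : ℕ) (c : F) : O := G.Sg (bas (M.xx r)) ((((M.ss r : ℤ) : F) * c) • bas (M.yy r))

/-- The word in root elements. -/
noncomputable def wO (w : List (ℕ × F)) : O := (w.map fun p => xO G M bas p.1 p.2).prod

theorem wO_nil : wO G M bas [] = (1 : O) := rfl

theorem wO_cons (a : ℕ × F) (w : List (ℕ × F)) : wO G M bas (a :: w) = xO G M bas a.1 a.2 * wO G M bas w := by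
  simp [wO]

theorem wO_append (w w' : List (ℕ × F)) : wO G M bas (w ++ w') = wO G M bas w * wO G M bas w' := by
  simp [wO, List.prod_append]

variable {M bas} (hR : Rep Q B M bas)
include hR

theorem xO_col (t u : F) {r : ℕ} (hx : M.kap (M.xx r) = 0) (hxy : M.bet (M.xx r) (M.yy r) = 0) (p : List Mo) (k : ℕ) :
    G.act (xO G M bas r (polyVal t u p)) (bas k) = VB bas t u (colS M r p k) := by
  have hu : Q (bas (M.xx r)) = 0 := by rw [hR.hQ, hx]; simp
  have hb : B (bas (M.xx r)) (bas (M.yy r)) = 0 := by rw [hR.hB, hxy]; simp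
  have hw : B (bas (M.xx r)) ((((M.ss r : ℤ) : F) * polyVal t u p) • bas (M.yy r)) = 0 := by
    rw [G.qs.smulB', hb, mul_zero]
  unfold xO
  rw [G.Sg_apply hu hw]
  unfold colS Sf
  rw [VB_cons, VB_append, VB_append]
  have e0 : tmVal t u ((k, 1, 0, 0) : Tm) • bas k = bas k := by simp [tmVal, moVal]
  have e1 : ∀ (c : ℤ) (y : ℕ) (P : List Mo), VB bas t u (P.map fun m => (y, c * m.1, m.2.1, m.2.2)) =
      ((c : F) * polyVal t u P) • bas y := by
    intro c y P
    induction P with
    | nil => simp [polyVal]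
    | cons m P ih =>
      simp only [List.map_cons, VB_cons, ih, polyVal_cons, mul_add, add_smul]
      congr 2
      simp only [tmVal, moVal, Int.cast_mul]
      ring
  have e2 : polyVal t u (polyPow p 2) = polyVal t u p ^ 2 := polyVal_pow t u p 2
  rw [e0]
  rw [e1, e1, e1, e2, hR.hB, G.qs.smulB', hR.hB, G.qs.smulQ, hR.hQ]
  push_cast
  module

theorem xO_apply (t u : F) {r : ℕ} (hx : M.kap (M.xx r) = 0) (hxy : M.bet (M.xx r) (M.yy r) = 0) (p : List Mo)
    (L : List Tm) :
    G.act (xO G M bas r (polyVal t u p)) (VB bas t u L) = VB bas t u (applyS M r p L) := by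
  rw [map_VB, applyS, VB_flatMap]
  congr 1
  apply List.map_congr_left
  intro τ _
  rw [xO_col G hR t u hx hxy, VB_map_tmMul]
  rfl

/-- Correctness of word application. -/
theorem act_word (t u : F) (n : ℕ)
    (hx : ∀ r, r < n → M.kap (M.xx r) = 0 ∧ M.bet (M.xx r) (M.yy r) = 0)
    (w : List (ℕ × List Mo)) (hw : ∀ a ∈ w, a.1 < n) (L : List Tm) :
    G.act (wO G M bas (evW t u w)) (VB bas t u L) = VB bas t u (applyWS M w L) := by
  induction w with
  | nil => simp [evW, wO, applyWS, G.act_one]
  | cons a w ih =>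
    have h1 : evW t u (a :: w) = (a.1, polyVal t u a.2) :: evW t u w := by simp [evW]
    rw [h1, wO_cons, G.act_mul, ih (fun b hb => hw b (List.mem_cons_of_mem _ hb)), applyWS, VB_canon]
    have ha := hw a List.mem_cons_self
    exact xO_apply G hR t u (hx _ ha).1 (hx _ ha).2 a.2 _

/-- The column of a word, read off its normal form. -/
theorem word_col (t u : F) (n : ℕ)
    (hx : ∀ r, r < n → M.kap (M.xx r) = 0 ∧ M.bet (M.xx r) (M.yy r) = 0)
    (lau : Bool) (hl : lau = true → t * u = 1) (w : List (ℕ × List Mo)) (hw : ∀ a ∈ w, a.1 < n) (k : ℕ) :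
    G.act (wO G M bas (evW t u w)) (bas k) = VB bas t u (nf lau (applyWS M w [(k, 1, 0, 0)])) := by
  rw [VB_nf bas lau hl, ← act_word G hR t u n hx w hw, VB_single]

/-- Two words with the same normal forms are equal. -/
theorem word_eq' (t u : F) (n : ℕ)
    (hx : ∀ r, r < n → M.kap (M.xx r) = 0 ∧ M.bet (M.xx r) (M.yy r) = 0)
    (hext : ∀ g h : O, (∀ k, k < M.dim → G.act g (bas k) = G.act h (bas k)) → g = h)
    (lau : Bool) (hl : lau = true → t * u = 1) (w w' : List (ℕ × List Mo))
    (hw : ∀ a ∈ w, a.1 < n) (hw' : ∀ a ∈ w', a.1 < n)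
    (h : ∀ k, k < M.dim → nf lau (applyWS M w [(k, 1, 0, 0)]) = nf lau (applyWS M w' [(k, 1, 0, 0)])) :
    wO G M bas (evW t u w) = wO G M bas (evW t u w') := by
  apply hext
  intro k hk
  rw [word_col G hR t u n hx lau hl w hw, word_col G hR t u n hx lau hl w' hw', h k hk]

end Rep

/-! ### The checks -/

/-- The validity of the root data. -/
def chkX (n : ℕ) (M : MT) : Bool :=
  allLt n fun r => decide (M.kap (M.xx r) = 0) && decide (M.bet (M.xx r) (M.yy r) = 0)

/-- The commutator relations. -/
def chkR2 (T : Tbl) (M : MT) : Bool :=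
  allLt T.n fun r => allLt T.n fun s =>
    Nat.beq s r || Nat.beq s (T.neg r) ||
      (let w₁ : List (ℕ × List Mo) := [(s, [(1, 0, 1)]), (r, [(1, 1, 0)])]
       let w₂ : List (ℕ × List Mo) := [(r, [(1, 1, 0)]), (s, [(1, 0, 1)])] ++ commW T r s
       w₂.all (fun a => decide (a.1 < T.n)) &&
       allLt M.dim fun k =>
        tmEq (nf false (applyWS M w₁ [(k, 1, 0, 0)])) (nf false (applyWS M w₂ [(k, 1, 0, 0)])))

/-- The normal form of the column of `h_r(t)`. -/
def hOf (T : Tbl) (M : MT) (r k : ℕ) : List Tm :=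
  nf true (applyWS M (ntw T.neg r ++ nmw T.neg r) [(k, 1, 0, 0)])

/-- The exponents of a single term. -/
def hA (L : List Tm) : ℕ × ℕ :=
  match L with
  | [τ] => (τ.2.2.1, τ.2.2.2)
  | _ => (0, 0)

/-- The torus check. -/
def chkR3 (T : Tbl) (M : MT) : Bool :=
  allLt T.n fun r => decide (T.neg r < T.n) && allLt M.dim fun k =>
    tmEq (hOf T M r k) [(k, 1, (hA (hOf T M r k)).1, (hA (hOf T M r k)).2)]

theorem hWord_eq {F : Type*} [Field F] (D : ChevalleyDatum) (r : ℕ) (t : F) :
    D.hWord r t = evW t t⁻¹ (ntw D.neg r ++ nmw D.neg r) := by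
  simp [ChevalleyDatum.hWord, ChevalleyDatum.nWord, evW, ntw, nmw, polyVal, moVal]

section Main

variable {F : Type*} [Field F] {W : Type*} [AddCommGroup W] [Module F W]
variable {Q : W → F} {B : W → W → F} {O : Type*} [Group O] (G : OGp Q B O) {M : MT} {bas : ℕ → W}
variable (hR : Rep Q B M bas) (D : ChevalleyDatum)
include hR

/-- The action of `h_r(t)` on the basis. -/
theorem hWord_col (hc1 : chkX D.nroots M = true) (hc3 : chkR3 (tblOf D) M = true)
    {r : ℕ} (hr : r < D.nroots) {k : ℕ} (hk : k < M.dim) {t : F} (ht : t ≠ 0) :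
    G.act (wO G M bas (D.hWord r t)) (bas k) =
      (t ^ (hA (hOf (tblOf D) M r k)).1 * t⁻¹ ^ (hA (hOf (tblOf D) M r k)).2) • bas k := by
  have hx : ∀ r, r < D.nroots → M.kap (M.xx r) = 0 ∧ M.bet (M.xx r) (M.yy r) = 0 := by
    intro r hr
    have h := (allLt_iff _ _).mp hc1 r hr
    simp only [Bool.and_eq_true, decide_eq_true_eq] at h
    exact h
  have h3 := (allLt_iff _ _).mp hc3 r hr
  simp only [Bool.and_eq_true, decide_eq_true_eq] at h3
  have hneg : D.neg r < D.nroots := h3.1
  have h4 := (tmEq_iff _ _).mp ((allLt_iff _ _).mp h3.2 k hk)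
  have htt : t * t⁻¹ = 1 := mul_inv_cancel₀ ht
  have hw : ∀ a ∈ ntw D.neg r ++ nmw D.neg r, a.1 < D.nroots := by
    intro a ha
    simp only [ntw, nmw, List.cons_append, List.nil_append, List.mem_cons, List.not_mem_nil, or_false] at ha
    rcases ha with rfl | rfl | rfl | rfl | rfl | rfl <;> assumption
  rw [hWord_eq D r t, word_col G hR t t⁻¹ D.nroots hx true (fun _ => htt) _ hw k]
  have e : nf true (applyWS M (ntw D.neg r ++ nmw D.neg r) [(k, 1, 0, 0)]) = hOf (tblOf D) M r k := rfl
  rw [e]
  conv_lhs => rw [h4]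
  simp [VB, tmVal, moVal]

/-- The universal property applied to the Siegel transformations. -/
theorem stLift_of (hc1 : chkX D.nroots M = true) (hc2 : chkR2 (tblOf D) M = true) (hc3 : chkR3 (tblOf D) M = true)
    (hext : ∀ g h : O, (∀ k, k < M.dim → G.act g (bas k) = G.act h (bas k)) → g = h) :
    ∃ ψ : D.SteinbergGroup F →* O, ∀ r t, r < D.nroots → ψ (D.stGen F r t) = xO G M bas r t := by
  have hx : ∀ r, r < D.nroots → M.kap (M.xx r) = 0 ∧ M.bet (M.xx r) (M.yy r) = 0 := by
    intro r hr
    have h := (allLt_iff _ _).mp hc1 r hr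
    simp only [Bool.and_eq_true, decide_eq_true_eq] at h
    exact h
  classical
  let xt : ℕ → F → O := fun r t => if r < D.nroots then xO G M bas r t else 1
  have hxt : ∀ r t, r < D.nroots → xt r t = xO G M bas r t := fun r t hr => if_pos hr
  have hwT : ∀ w : List (ℕ × F), (∀ a ∈ w, a.1 < D.nroots) → wT xt w = wO G M bas w := by
    intro w hw
    induction w with
    | nil => rfl
    | cons a w ih =>
      rw [wT_cons, wO_cons, hxt _ _ (hw a List.mem_cons_self), ih (fun b hb => hw b (List.mem_cons_of_mem _ hb))]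
  obtain ⟨ψ, hψ⟩ := stLift_exists D xt (fun r t hr => if_neg (not_lt.mpr hr))
    (by
      intro r t u hr
      rw [hxt _ _ hr, hxt _ _ hr, hxt _ _ hr]
      unfold xO
      have hu : Q (bas (M.xx r)) = 0 := by rw [hR.hQ, (hx r hr).1]; simp
      have hb : B (bas (M.xx r)) (bas (M.yy r)) = 0 := by rw [hR.hB, (hx r hr).2]; simp
      rw [G.Sg_add hu (by rw [G.qs.smulB', hb, mul_zero]) (by rw [G.qs.smulB', hb, mul_zero]), ← add_smul, mul_add])
    (by
      intro r s t u hr hs h1 h2
      have h := (allLt_iff _ _).mp ((allLt_iff _ _).mp hc2 r hr) s hs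
      have h1' : Nat.beq s r = false := by
        rw [Bool.eq_false_iff]
        intro h5
        exact h1 (Nat.eq_of_beq_eq_true h5)
      have h2' : Nat.beq s ((tblOf D).neg r) = false := by
        rw [Bool.eq_false_iff]
        intro h5
        exact h2 (Nat.eq_of_beq_eq_true h5)
      rw [h1', h2'] at h
      simp only [Bool.false_or, Bool.and_eq_true] at h
      obtain ⟨h3, h4⟩ := h
      have hw₂ : ∀ a ∈ ([(r, [(1, 1, 0)]), (s, [(1, 0, 1)])] ++ commW (tblOf D) r s : List (ℕ × List Mo)),
          a.1 < D.nroots := fun a ha => of_decide_eq_true (List.all_eq_true.mp h3 a ha)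
      have h5 := word_eq' G hR t u D.nroots hx hext false (by simp) [(s, [(1, 0, 1)]), (r, [(1, 1, 0)])]
        ([(r, [(1, 1, 0)]), (s, [(1, 0, 1)])] ++ commW (tblOf D) r s)
        (by simpa using ⟨hs, hr⟩) hw₂
        (fun k hk => (tmEq_iff _ _).mp ((allLt_iff _ _).mp h4 k hk))
      have e1 : evW t u (commW (tblOf D) r s) = D.commWord F r s t u := by
        unfold evW commW ChevalleyDatum.commWord
        rw [List.map_map]
        change List.map _ (D.commTerms r s) = _
        apply List.map_congr_left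
        intro c _
        simp only [Function.comp, polyVal, moVal, List.map_cons, List.map_nil, List.sum_cons, List.sum_nil, add_zero,
          Prod.mk.injEq, true_and]
        push_cast
        rw [neg_pow t]
        ring
      have e2 : evW t u ([(r, [(1, 1, 0)]), (s, [(1, 0, 1)])] ++ commW (tblOf D) r s : List (ℕ × List Mo)) =
          [(r, t), (s, u)] ++ D.commWord F r s t u := by
        rw [← e1]
        simp [evW, polyVal, moVal]
      have e3 : evW t u ([(s, [(1, 0, 1)]), (r, [(1, 1, 0)])] : List (ℕ × List Mo)) = [(s, u), (r, t)] := by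
        simp [evW, polyVal, moVal]
      rw [e2, e3] at h5
      have hw₃ : ∀ a ∈ D.commWord F r s t u, a.1 < D.nroots := by
        intro a ha
        rw [← e1] at ha
        unfold evW at ha
        obtain ⟨b, hb, rfl⟩ := List.mem_map.mp ha
        exact hw₂ b (List.mem_append_right _ hb)
      rw [hxt _ _ hs, hxt _ _ hr, hwT _ hw₃]
      rw [wO_cons, wO_cons, wO_nil, wO_append, wO_cons, wO_cons, wO_nil] at h5
      simpa [mul_assoc] using h5)
    (by
      intro r t u hr ht hu
      have h3 := (allLt_iff _ _).mp hc3 r hr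
      simp only [Bool.and_eq_true, decide_eq_true_eq] at h3
      have hneg : D.neg r < D.nroots := h3.1
      have hw : ∀ t : F, ∀ a ∈ D.hWord r t, a.1 < D.nroots := by
        intro t a ha
        simp only [ChevalleyDatum.hWord, ChevalleyDatum.nWord, List.cons_append, List.nil_append, List.mem_cons,
          List.not_mem_nil, or_false] at ha
        rcases ha with rfl | rfl | rfl | rfl | rfl | rfl <;> assumption
      rw [hwT _ (hw t), hwT _ (hw u), hwT _ (hw (t * u))]
      apply hext
      intro k hk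
      rw [G.act_mul, hWord_col G hR D hc1 hc3 hr hk hu, map_smul, hWord_col G hR D hc1 hc3 hr hk ht,
        hWord_col G hR D hc1 hc3 hr hk (mul_ne_zero ht hu), smul_smul, mul_inv, mul_pow, mul_pow]
      congr 1
      ring)
  exact ⟨ψ, fun r t hr => by rw [hψ, hxt _ _ hr]⟩

end Main

end Cfsg.Agent.Lib.Chev.Om
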