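import Cfsg.Agent.Lib.Chev.Om.Eng

/-!
The group generated by the Siegel transformations of a basis: its normaliser, its identification
with the image of the presented group.
-/

set_option autoImplicit false
set_option linter.unusedSimpArgs false
set_option linter.unusedVariables false
set_option linter.unusedSectionVars false

namespace Cfsg.Agent.Lib.Chev.Om

open Cfsg Cfsg.Lie

variable {F : Type*} [Field F] {W : Type*} [AddCommGroup W] [Module F W]
variable {Q : W → F} {B : W → W → F} {O : Type*} [Group O] (G : OGp Q B O)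

namespace OGp

theorem Sg_self {u : W} (hu : Q u = 0) (c : F) : G.Sg u (c • u) = (1 : O) := by
  have h0 : B u u = 0 := by rw [G.qs.self, hu, mul_zero]
  apply G.ext
  intro v
  rw [G.Sg_apply hu (by rw [G.qs.smulB', h0, mul_zero]), G.act_one]
  unfold Sf
  rw [G.qs.smulB', G.qs.smulQ, hu, smul_smul, mul_zero, zero_mul, add_zero, add_sub_assoc, ← sub_smul]
  have : B v u * c - c * B v u = 0 := by ring
  rw [this, zero_smul, add_zero]

/-- The generators. -/
def gens (dim : ℕ) (bas : ℕ → W) : Set O :=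
  {g | ∃ (x y : ℕ) (c : F), x < dim ∧ y < dim ∧ Q (bas x) = 0 ∧ B (bas x) (bas y) = 0 ∧ g = G.Sg (bas x) (c • bas y)}

/-- The group generated by the Siegel transformations of the basis. -/
def EE (dim : ℕ) (bas : ℕ → W) : Subgroup O := Subgroup.closure (G.gens dim bas)

variable {dim : ℕ} {bas : ℕ → W}

theorem gen_mem {x y : ℕ} (hx : x < dim) (hy : y < dim) (h1 : Q (bas x) = 0) (h2 : B (bas x) (bas y) = 0) (c : F) :
    G.Sg (bas x) (c • bas y) ∈ G.EE dim bas :=
  Subgroup.subset_closure ⟨x, y, c, hx, hy, h1, h2, rfl⟩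

/-- Siegel transformations attached to a basis vector and a finite sum. -/
theorem Sg_sum_mem {x : ℕ} (hx : x < dim) (h1 : Q (bas x) = 0) (c : ℕ → F) (s : Finset ℕ) (hs : ∀ a ∈ s, a < dim)
    (h : ∀ a ∈ s, c a = 0 ∨ B (bas x) (bas a) = 0) :
    G.Sg (bas x) (∑ a ∈ s, c a • bas a) ∈ G.EE dim bas ∧ B (bas x) (∑ a ∈ s, c a • bas a) = 0 := by
  classical
  induction s using Finset.induction_on with
  | empty =>
    simp only [Finset.sum_empty]
    rw [G.Sg_zero, G.qs.zeroB']
    exact ⟨Subgroup.one_mem _, rfl⟩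
  | insert a s ha ih =>
    obtain ⟨i1, i2⟩ := ih (fun b hb => hs b (Finset.mem_insert_of_mem hb))
      (fun b hb => h b (Finset.mem_insert_of_mem hb))
    rw [Finset.sum_insert ha]
    have h3 : B (bas x) (c a • bas a) = 0 := by
      rcases h a (Finset.mem_insert_self a s) with h4 | h4
      · rw [h4, zero_smul, G.qs.zeroB']
      · rw [G.qs.smulB', h4, mul_zero]
    refine ⟨?_, by rw [G.qs.addB', h3, i2, add_zero]⟩
    rw [← G.Sg_add h1 h3 i2]
    apply Subgroup.mul_mem _ _ i1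
    rcases h a (Finset.mem_insert_self a s) with h4 | h4
    · rw [h4, zero_smul, G.Sg_zero]
      exact Subgroup.one_mem _
    · exact G.gen_mem hx (hs a (Finset.mem_insert_self a s)) h1 h4 _

/-- Conjugation by an element sending the basis to multiples of the basis. -/
theorem EE_conj (t : O) (ht : ∀ k, k < dim → ∃ (l : F) (k' : ℕ), l ≠ 0 ∧ k' < dim ∧ G.act t (bas k) = l • bas k')
    (z : O) (hz : z ∈ G.EE dim bas) : t * z * t⁻¹ ∈ G.EE dim bas := by
  induction hz using Subgroup.closure_induction with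
  | mem z hz =>
    obtain ⟨x, y, c, hx, hy, h1, h2, rfl⟩ := hz
    obtain ⟨l, x', hl, hx', e1⟩ := ht x hx
    obtain ⟨m, y', hm, hy', e2⟩ := ht y hy
    have hw : B (bas x) (c • bas y) = 0 := by rw [G.qs.smulB', h2, mul_zero]
    rw [G.Sg_conj t h1 hw, map_smul, e1, e2, G.Sg_scale _ _ hl, smul_smul, smul_smul]
    have h3 : Q (bas x') = 0 := by
      have h4 := G.Q_act t (bas x)
      rw [e1, h1, G.qs.smulQ] at h4
      exact (mul_eq_zero.mp h4).resolve_left (mul_ne_zero hl hl)
    have h5 : B (bas x') (bas y') = 0 := by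
      have h4 := G.B_act t (bas x) (bas y)
      rw [e1, e2, h2, G.qs.smulB, G.qs.smulB'] at h4
      exact (mul_eq_zero.mp ((mul_eq_zero.mp h4).resolve_left hl)).resolve_left hm
    exact G.gen_mem hx' hy' h3 h5 _
  | one =>
    rw [mul_one, mul_inv_cancel]
    exact Subgroup.one_mem _
  | mul a b _ _ ha hb =>
    have e : t * (a * b) * t⁻¹ = (t * a * t⁻¹) * (t * b * t⁻¹) := by group
    rw [e]
    exact Subgroup.mul_mem _ ha hb
  | inv a _ ha =>
    have e : t * a⁻¹ * t⁻¹ = (t * a * t⁻¹)⁻¹ := by group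
    rw [e]
    exact Subgroup.inv_mem _ ha

/-- A criterion for two Siegel transformations not to commute. -/
theorem Sg_noncomm {e₁ f₁ e₂ f₂ w : W} (h1 : Q e₁ = 0) (h2 : B e₁ f₂ = 0) (h3 : Q e₂ = 0) (h4 : B e₂ w = 0)
    (h5 : B f₁ e₁ = 1) (h6 : B f₁ f₂ = 0) (h7 : Q f₂ = 0) (h8 : B f₁ e₂ = 0) (h9 : B f₁ w = 0)
    (h10 : B f₂ e₂ = 1) (h11 : w ≠ (B f₂ w + Q w) • e₂) :
    G.Sg e₁ f₂ * G.Sg e₂ w ≠ G.Sg e₂ w * G.Sg e₁ f₂ := by
  intro h
  have h0 := congrArg (fun g => G.act g f₁) h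
  simp only [G.act_mul] at h0
  have e1 : G.act (G.Sg e₂ w) f₁ = f₁ := by
    rw [G.Sg_apply h3 h4]
    exact Sf_fix G.qs h8 h9
  have e2 : G.act (G.Sg e₁ f₂) f₁ = f₁ + f₂ := by
    rw [G.Sg_apply h1 h2]
    unfold Sf
    rw [h5, h6, h7]
    simp
  have e3 : G.act (G.Sg e₂ w) f₂ = f₂ + w - (B f₂ w + Q w) • e₂ := by
    rw [G.Sg_apply h3 h4]
    unfold Sf
    rw [h10]
    simp
  rw [e1, e2, map_add, e1, e3] at h0
  apply h11
  have h12 : f₁ + (f₂ + w - (B f₂ w + Q w) • e₂) = f₁ + f₂ + (w - (B f₂ w + Q w) • e₂) := by abel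
  rw [h12] at h0
  have h13 : w - (B f₂ w + Q w) • e₂ = 0 := by
    simpa using h0
  exact sub_eq_zero.mp h13

end OGp

/-! ### Comparison with the presented group -/

/-- Search of a root with given pair of basis vectors. -/
def hasRoot (n : ℕ) (M : MT) (x y : ℕ) : Bool :=
  (List.range n).any fun r =>
    (Nat.beq (M.xx r) x && Nat.beq (M.yy r) y && (decide (M.ss r = 1) || decide (M.ss r = -1))) ||
    (Nat.beq (M.xx r) y && Nat.beq (M.yy r) x && decide (M.kap y = 0) && (decide (M.ss r = 1) || decide (M.ss r = -1)))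

/-- Every pair is the pair of a root. -/
def chkGen (n : ℕ) (M : MT) : Bool :=
  allLt M.dim fun x => allLt M.dim fun y =>
    decide (M.kap x = 1) || decide (M.bet x y = 1) || Nat.beq x y || hasRoot n M x y

/-- Root data are in range. -/
def chkRange (n : ℕ) (M : MT) : Bool :=
  allLt n fun r => decide (M.xx r < M.dim) && decide (M.yy r < M.dim)

section Range

variable {M : MT} {bas : ℕ → W} (hR : Rep Q B M bas) (D : ChevalleyDatum)
include hR

theorem xO_mem (hc1 : chkX D.nroots M = true) (hc2 : chkRange D.nroots M = true) {r : ℕ} (hr : r < D.nroots) (t : F) :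
    xO G M bas r t ∈ G.gens M.dim bas := by
  have h1 := (allLt_iff _ _).mp hc1 r hr
  have h2 := (allLt_iff _ _).mp hc2 r hr
  simp only [Bool.and_eq_true, decide_eq_true_eq] at h1 h2
  exact ⟨M.xx r, M.yy r, _, h2.1, h2.2, by rw [hR.hQ, h1.1]; simp, by rw [hR.hB, h1.2]; simp, rfl⟩

theorem range_eq (hc1 : chkX D.nroots M = true) (hc2 : chkRange D.nroots M = true) (hc3 : chkGen D.nroots M = true)
    (ψ : D.SteinbergGroup F →* O) (hψ : ∀ r t, r < D.nroots → ψ (D.stGen F r t) = xO G M bas r t) :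
    ψ.range = G.EE M.dim bas := by
  have hx : ∀ r, r < D.nroots → M.kap (M.xx r) = 0 ∧ M.bet (M.xx r) (M.yy r) = 0 := by
    intro r hr
    have h := (allLt_iff _ _).mp hc1 r hr
    simp only [Bool.and_eq_true, decide_eq_true_eq] at h
    exact h
  apply le_antisymm
  · rw [MonoidHom.range_eq_map, ← stGen_closure D, MonoidHom.map_closure, Subgroup.closure_le]
    rintro _ ⟨_, ⟨p, rfl⟩, rfl⟩
    simp only
    rw [hψ _ _ p.1.isLt]
    exact Subgroup.subset_closure (xO_mem G hR D hc1 hc2 p.1.isLt p.2)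
  · rw [OGp.EE, Subgroup.closure_le]
    rintro _ ⟨x, y, c, hx', hy', h1, h2, rfl⟩
    have h3 := (allLt_iff _ _).mp ((allLt_iff _ _).mp hc3 x hx') y hy'
    simp only [Bool.or_eq_true, decide_eq_true_eq] at h3
    rcases h3 with ((h3 | h3) | h3) | h3
    · rw [hR.hQ, h3] at h1
      simp at h1
    · rw [hR.hB, h3] at h2
      simp at h2
    · have h4 := Nat.eq_of_beq_eq_true h3
      subst h4
      rw [G.Sg_self h1]
      exact Subgroup.one_mem _
    · obtain ⟨r, hr, h4⟩ := List.any_eq_true.mp h3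
      have hr' : r < D.nroots := List.mem_range.mp hr
      simp only [Bool.or_eq_true, Bool.and_eq_true, decide_eq_true_eq] at h4
      have hs : ∀ s : ℤ, (s = 1 ∨ s = -1) → ∀ c : F, (((s : ℤ) : F) * (((s : ℤ) : F) * c)) = c := by
        rintro s (rfl | rfl) c <;> simp
      rcases h4 with ⟨⟨h5, h6⟩, h7⟩ | ⟨⟨⟨h5, h6⟩, h8⟩, h7⟩
      · have h5' := Nat.eq_of_beq_eq_true h5
        have h6' := Nat.eq_of_beq_eq_true h6
        refine ⟨D.stGen F r (((M.ss r : ℤ) : F) * c), ?_⟩
        rw [hψ _ _ hr']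
        unfold xO
        rw [h5', h6', hs _ h7]
      · have h5' := Nat.eq_of_beq_eq_true h5
        have h6' := Nat.eq_of_beq_eq_true h6
        refine ⟨D.stGen F r (((M.ss r : ℤ) : F) * (-c)), ?_⟩
        rw [hψ _ _ hr']
        unfold xO
        rw [h5', h6', hs _ h7, G.Sg_swap h1 (by rw [hR.hQ, h8]; simp) h2 c]

end Range

end Cfsg.Agent.Lib.Chev.Om
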