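import Cfsg.Agent.Lib.Chev.Om.Frame
import Cfsg.Agent.Lib.Chev.Stein1

/-! Perfectness of the presented group when every root element is a commutator of root elements. -/

set_option autoImplicit false
set_option linter.unusedSimpArgs false
set_option linter.unusedVariables false
set_option linter.unusedSectionVars false

namespace Cfsg.Agent.Lib.Chev.Om

open Cfsg Cfsg.Lie
open scoped commutatorElement

/-- Some commutator of root elements is a single root element with coefficient `±1`. -/
def chkPerfT (T : Tbl) : Bool :=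
  allLt T.n fun r => (List.range T.n).any fun a => (List.range T.n).any fun b =>
    !Nat.beq b a && !Nat.beq b (T.neg a) &&
      match commT T.ce a b with
      | [c] => Nat.beq c.1 r && (decide (c.2.1 = 1) || decide (c.2.1 = -1)) && Nat.beq c.2.2.1 1 && Nat.beq c.2.2.2 1
      | _ => false

variable {F : Type*} [Field F] (D : ChevalleyDatum)

theorem stGen_comm (hP : chkPerfT (tblOf D) = true) {r : ℕ} (hr : r < D.nroots) (t : F) :
    D.stGen F r t ∈ commutator (D.SteinbergGroup F) := by
  have h1 := (allLt_iff _ _).mp hP r hr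
  obtain ⟨a, ha, h2⟩ := List.any_eq_true.mp h1
  obtain ⟨b, hb, h3⟩ := List.any_eq_true.mp h2
  have ha' : a < D.nroots := List.mem_range.mp ha
  have hb' : b < D.nroots := List.mem_range.mp hb
  simp only [Bool.and_eq_true, Bool.not_eq_true'] at h3
  obtain ⟨⟨h4, h5⟩, h6⟩ := h3
  have h4' : b ≠ a := fun h => by
    subst h
    have : Nat.beq b b = true := Nat.beq_refl b
    rw [this] at h4
    exact Bool.noConfusion h4
  have h5' : b ≠ D.neg a := fun h => by
    have : Nat.beq b ((tblOf D).neg a) = true := by
      rw [h]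
      exact Nat.beq_refl _
    rw [this] at h5
    exact Bool.noConfusion h5
  have hct : commT (tblOf D).ce a b = D.commTerms a b := commT_eq D a b
  rw [hct] at h6
  generalize hC : D.commTerms a b = C at h6
  match C, h6 with
  | [c], h6 =>
    simp only [Bool.and_eq_true, Bool.or_eq_true, decide_eq_true_eq] at h6
    obtain ⟨⟨⟨h7, h8⟩, h9⟩, h10⟩ := h6
    have h7' := Nat.eq_of_beq_eq_true h7
    have h9' := Nat.eq_of_beq_eq_true h9
    have h10' := Nat.eq_of_beq_eq_true h10
    have hcc : ((c.2.1 : ℤ) : F) * ((c.2.1 : ℤ) : F) = 1 := by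
      rcases h8 with h8 | h8 <;> rw [h8] <;> simp
    have hw : D.commWord F a b (-(((c.2.1 : ℤ) : F) * t)) 1 = [(r, t)] := by
      unfold ChevalleyDatum.commWord
      rw [hC]
      simp only [List.map_cons, List.map_nil, h7', h9', h10', List.cons.injEq, Prod.mk.injEq, true_and, and_true]
      rw [pow_one, pow_one, neg_neg, mul_one, ← mul_assoc, hcc, one_mul]
    have h11 := stGen_R2 ha' hb' h4' h5' (-(((c.2.1 : ℤ) : F) * t)) (1 : F)
    rw [hw, wB_cons, wB_nil, mul_one] at h11
    simp only at h11
    obtain ⟨X, hX⟩ : ∃ X, X = D.stGen F a (-(((c.2.1 : ℤ) : F) * t)) := ⟨_, rfl⟩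
    obtain ⟨Y, hY⟩ : ∃ Y, Y = D.stGen F b (1 : F) := ⟨_, rfl⟩
    rw [← hX, ← hY] at h11
    have e : D.stGen F r t = ⁅Y⁻¹, X⁻¹⁆ := by
      rw [commutatorElement_def]
      have : Y⁻¹ * X⁻¹ * Y⁻¹⁻¹ * X⁻¹⁻¹ = (X * Y)⁻¹ * (Y * X) := by group
      rw [this, h11]
      group
    rw [e]
    exact Subgroup.commutator_mem_commutator (Subgroup.mem_top _) (Subgroup.mem_top _)
  | [], h6 => exact Bool.noConfusion h6
  | _ :: _ :: _, h6 => exact Bool.noConfusion h6

theorem stGrp_perfect (hP : chkPerfT (tblOf D) = true) : commutator (D.SteinbergGroup F) = ⊤ := by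
  rw [eq_top_iff, ← stGen_closure D (K := F), Subgroup.closure_le]
  rintro _ ⟨p, rfl⟩
  exact stGen_comm D hP p.1.isLt p.2

/-- The image of a perfect group lies in the commutator subgroup. -/
theorem map_mem_comm {A C : Type*} [Group A] [Group C] (hA : commutator A = ⊤) (ψ : A →* C) (z : A) :
    ψ z ∈ commutator C := by
  have h1 : z ∈ commutator A := by
    rw [hA]
    trivial
  have h2 : commutator A ≤ (commutator C).comap ψ := by
    rw [commutator_def, Subgroup.commutator_le]
    intro g _ h _
    rw [Subgroup.mem_comap, map_commutatorElement]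
    exact Subgroup.commutator_mem_commutator (Subgroup.mem_top _) (Subgroup.mem_top _)
  exact h2 h1

end Cfsg.Agent.Lib.Chev.Om
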