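import Cfsg.Prelude.Def_Classical

/-!
Siegel transformations of a quadratic space: the formula, its composition law, the group they
generate in an abstract isometry group.
-/

set_option autoImplicit false
set_option linter.unusedSimpArgs false
set_option linter.unusedVariables false
set_option linter.unusedSectionVars false

namespace Cfsg.Agent.Lib.Chev.Om

variable {F : Type*} [Field F] {V : Type*} [AddCommGroup V] [Module F V]

/-- A quadratic form with its polar form. -/
structure QSys (Q : V → F) (B : V → V → F) : Prop where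
  add : ∀ x y, Q (x + y) = Q x + Q y + B x y
  smulQ : ∀ (c : F) (x : V), Q (c • x) = c * c * Q x
  symm : ∀ x y, B x y = B y x
  addB : ∀ x y z, B (x + y) z = B x z + B y z
  smulB : ∀ (c : F) (x y : V), B (c • x) y = c * B x y

namespace QSys

variable {Q : V → F} {B : V → V → F} (S : QSys Q B)
include S

theorem addB' (x y z : V) : B x (y + z) = B x y + B x z := by
  rw [S.symm, S.addB, S.symm y, S.symm z]

theorem smulB' (c : F) (x y : V) : B x (c • y) = c * B x y := by
  rw [S.symm, S.smulB, S.symm y]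

theorem zeroB (y : V) : B 0 y = 0 := by
  have h := S.smulB 0 (0 : V) y
  simpa using h

theorem zeroB' (y : V) : B y 0 = 0 := by
  rw [S.symm, S.zeroB]

theorem negB (x y : V) : B (-x) y = - B x y := by
  have h := S.smulB (-1) x y
  simpa using h

theorem negB' (x y : V) : B x (-y) = - B x y := by
  rw [S.symm, S.negB, S.symm]

theorem subB (x y z : V) : B (x - y) z = B x z - B y z := by
  rw [sub_eq_add_neg, S.addB, S.negB, sub_eq_add_neg]

theorem subB' (x y z : V) : B x (y - z) = B x y - B x z := by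
  rw [sub_eq_add_neg, S.addB', S.negB', sub_eq_add_neg]

theorem Q_zero : Q (0 : V) = 0 := by
  have h := S.smulQ 0 (0 : V)
  simpa using h

theorem Q_neg (x : V) : Q (-x) = Q x := by
  have h := S.smulQ (-1) x
  simpa using h

theorem self (x : V) : B x x = 2 * Q x := by
  have h1 := S.add x x
  have h2 := S.smulQ 2 x
  have h3 : (2 : F) • x = x + x := two_smul F x
  rw [h3] at h2
  rw [h2] at h1
  linear_combination -h1

end QSys

/-- The Siegel transformation formula. -/
def Sf (Q : V → F) (B : V → V → F) (u w v : V) : V :=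
  v + B v u • w - (B v w + Q w * B v u) • u

section Sf

variable {Q : V → F} {B : V → V → F} (S : QSys Q B)
include S

/-- The Siegel transformation as a linear map. -/
def SfL (u w : V) : V →ₗ[F] V where
  toFun := Sf Q B u w
  map_add' x y := by
    simp only [Sf, S.addB, add_smul, mul_add]
    abel
  map_smul' c x := by
    simp only [Sf, S.smulB, RingHom.id_apply, smul_sub, smul_add, smul_smul]
    have e : c * B x w + Q w * (c * B x u) = c * (B x w + Q w * B x u) := by ring
    rw [e]

@[simp] theorem SfL_apply (u w v : V) : SfL S u w v = Sf Q B u w v := rfl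

theorem Sf_zero (u v : V) : Sf Q B u 0 v = v := by
  simp [Sf, S.zeroB', S.Q_zero]

theorem Sf_fix {u w v : V} (h1 : B v u = 0) (h2 : B v w = 0) : Sf Q B u w v = v := by
  simp [Sf, h1, h2]

theorem Sf_self {u w : V} (hu : Q u = 0) (h : B u w = 0) : Sf Q B u w u = u := by
  apply Sf_fix S _ h
  rw [S.self, hu, mul_zero]

theorem Sf_add {u w w' v : V} (hu : Q u = 0) (h1 : B u w = 0) (h2 : B u w' = 0) :
    Sf Q B u w (Sf Q B u w' v) = Sf Q B u (w + w') v := by
  have h0 : B u u = 0 := by rw [S.self, hu, mul_zero]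
  have e1 : B (Sf Q B u w' v) u = B v u := by
    simp only [Sf, S.subB, S.addB, S.smulB, h0, S.symm w' u, h2]
    ring
  have e2 : B (Sf Q B u w' v) w = B v w + B v u * B w' w := by
    simp only [Sf, S.subB, S.addB, S.smulB, h1]
    ring
  unfold Sf at e1 e2 ⊢
  rw [e1, e2, S.add w w', S.addB', smul_add, S.symm w w']
  have e3 : (B v w + B v u * B w' w + Q w * B v u) • u + (B v w' + Q w' * B v u) • u =
      (B v w + B v w' + (Q w + Q w' + B w' w) * B v u) • u := by
    rw [← add_smul]
    congr 1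
    ring
  rw [← e3]
  abel

theorem Q_Sf {u w v : V} (hu : Q u = 0) (h : B u w = 0) : Q (Sf Q B u w v) = Q v := by
  have h0 : B w u = 0 := by rw [S.symm, h]
  unfold Sf
  rw [sub_eq_add_neg, S.add, S.add, S.Q_neg, S.smulQ, S.smulQ, hu, S.negB', S.addB, S.smulB', S.smulB',
    S.smulB, S.smulB', h0]
  ring

theorem B_Sf {u w x y : V} (hu : Q u = 0) (h : B u w = 0) :
    B (Sf Q B u w x) (Sf Q B u w y) = B x y := by
  have h1 := S.add (Sf Q B u w x) (Sf Q B u w y)
  have h2 : Sf Q B u w x + Sf Q B u w y = Sf Q B u w (x + y) := (map_add (SfL S u w) x y).symm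
  rw [h2, Q_Sf S hu h, Q_Sf S hu h, Q_Sf S hu h, S.add] at h1
  linear_combination -h1

theorem Sf_clear {u v v' : V} {a : F} (hv : Q v = 0) (hv' : Q v' = 0)
    (h : B v u = a) (h' : B v' u = a) (ha : a ≠ 0) : Sf Q B u (a⁻¹ • (v' - v)) v = v' := by
  have h0 : B v v = 0 := by rw [S.self, hv, mul_zero]
  have e1 : B v (a⁻¹ • (v' - v)) = a⁻¹ * B v v' := by
    rw [S.smulB', S.subB', h0, sub_zero]
  have e2 : Q (a⁻¹ • (v' - v)) = a⁻¹ * a⁻¹ * (- B v v') := by
    rw [S.smulQ, sub_eq_add_neg, S.add, S.Q_neg, hv, hv', S.negB', S.symm v' v]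
    ring
  unfold Sf
  rw [e1, e2, h]
  have e3 : a⁻¹ * B v v' + a⁻¹ * a⁻¹ * (- B v v') * a = 0 := by
    field_simp
    ring
  rw [e3, zero_smul, sub_zero, smul_smul, mul_inv_cancel₀ ha, one_smul]
  abel

theorem Sf_scale (c : F) (u w v : V) : Sf Q B (c • u) w v = Sf Q B u (c • w) v := by
  unfold Sf
  rw [S.smulB', S.smulB', S.smulQ, smul_smul, smul_smul]
  congr 2
  · rw [mul_comm]
  · ring_nf

theorem Sf_swap {x y v : V} (hx : Q x = 0) (hy : Q y = 0) (h : B x y = 0) (c : F) :
    Sf Q B x (c • y) v = Sf Q B y ((-c) • x) v := by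
  unfold Sf
  rw [S.smulB', S.smulB', S.smulQ, S.smulQ, hx, hy, smul_smul, smul_smul]
  have e1 : (c * B v y + c * c * 0 * B v x) • x = - ((B v y * -c) • x) := by
    rw [← neg_smul]
    congr 1
    ring
  have e2 : (-c * B v x + -c * -c * 0 * B v y) • y = -((B v x * c) • y) := by
    rw [← neg_smul]
    congr 1
    ring
  rw [e1, e2]
  abel

theorem B_Sf_right {u w x y : V} :
    B (Sf Q B u w x) y = B x y + B x u * B w y - (B x w + Q w * B x u) * B u y := by
  unfold Sf
  rw [S.subB, S.addB, S.smulB, S.smulB]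

end Sf

/-- The abstract group of isometries. -/
structure OGp (Q : V → F) (B : V → V → F) (O : Type*) [Group O] where
  qs : QSys Q B
  act : O →* Module.End F V
  Q_act : ∀ (g : O) (v : V), Q (act g v) = Q v
  inj : Function.Injective act
  mkA : ∀ f f' : Module.End F V, (∀ v, Q (f v) = Q v) → f * f' = 1 → f' * f = 1 → ∃ g, act g = f

namespace OGp

variable {Q : V → F} {B : V → V → F} {O : Type*} [Group O] (G : OGp Q B O)

theorem act_mul (g h : O) (v : V) : G.act (g * h) v = G.act g (G.act h v) := by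
  rw [map_mul]; rfl

theorem act_one (v : V) : G.act (1 : O) v = v := by
  rw [map_one]; rfl

theorem act_inv_act (g : O) (v : V) : G.act g⁻¹ (G.act g v) = v := by
  rw [← G.act_mul, inv_mul_cancel, G.act_one]

theorem act_act_inv (g : O) (v : V) : G.act g (G.act g⁻¹ v) = v := by
  rw [← G.act_mul, mul_inv_cancel, G.act_one]

theorem B_act (g : O) (x y : V) : B (G.act g x) (G.act g y) = B x y := by
  have h1 := G.qs.add (G.act g x) (G.act g y)
  rw [← map_add, G.Q_act, G.Q_act, G.Q_act, G.qs.add] at h1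
  linear_combination -h1

theorem B_act_left (g : O) (x y : V) : B (G.act g x) y = B x (G.act g⁻¹ y) := by
  rw [← G.B_act g x, G.act_act_inv]

theorem ext {g h : O} (H : ∀ v, G.act g v = G.act h v) : g = h :=
  G.inj (LinearMap.ext H)

/-- Existence of the group element with a prescribed action. -/
theorem exists_of (f f' : V → V) (add : ∀ x y, f (x + y) = f x + f y) (smul : ∀ (c : F) x, f (c • x) = c • f x)
    (add' : ∀ x y, f' (x + y) = f' x + f' y) (smul' : ∀ (c : F) x, f' (c • x) = c • f' x)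
    (hQ : ∀ v, Q (f v) = Q v) (h1 : ∀ v, f (f' v) = v) (h2 : ∀ v, f' (f v) = v) :
    ∃ g, ∀ v, G.act g v = f v := by
  obtain ⟨g, hg⟩ := G.mkA ⟨⟨f, add⟩, smul⟩ ⟨⟨f', add'⟩, smul'⟩ hQ (LinearMap.ext h1) (LinearMap.ext h2)
  exact ⟨g, fun v => by rw [hg]; rfl⟩

/-- The group element of a Siegel transformation, total. -/
noncomputable def Sg (u w : V) : O := by
  classical
  exact if h : Q u = 0 ∧ B u w = 0 then
    Classical.choose (G.exists_of (Sf Q B u w) (Sf Q B u (-w))
      (map_add (SfL G.qs u w)) (map_smul (SfL G.qs u w)) (map_add (SfL G.qs u (-w))) (map_smul (SfL G.qs u (-w)))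
      (fun v => Q_Sf G.qs h.1 h.2)
      (fun v => by
        rw [Sf_add G.qs h.1 h.2 (by rw [G.qs.negB', h.2, neg_zero]), add_neg_cancel, Sf_zero G.qs])
      (fun v => by
        rw [Sf_add G.qs h.1 (by rw [G.qs.negB', h.2, neg_zero]) h.2, neg_add_cancel, Sf_zero G.qs]))
  else 1

theorem Sg_apply {u w : V} (hu : Q u = 0) (h : B u w = 0) (v : V) : G.act (G.Sg u w) v = Sf Q B u w v := by
  classical
  unfold Sg
  rw [dif_pos ⟨hu, h⟩]
  exact Classical.choose_spec (G.exists_of (Sf Q B u w) (Sf Q B u (-w))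
      (map_add (SfL G.qs u w)) (map_smul (SfL G.qs u w)) (map_add (SfL G.qs u (-w))) (map_smul (SfL G.qs u (-w)))
      (fun v => Q_Sf G.qs hu h)
      (fun v => by
        rw [Sf_add G.qs hu h (by rw [G.qs.negB', h, neg_zero]), add_neg_cancel, Sf_zero G.qs])
      (fun v => by
        rw [Sf_add G.qs hu (by rw [G.qs.negB', h, neg_zero]) h, neg_add_cancel, Sf_zero G.qs])) v

theorem Sg_zero (u : V) : G.Sg u 0 = (1 : O) := by
  by_cases hu : Q u = 0
  · apply G.ext
    intro v
    rw [G.Sg_apply hu (G.qs.zeroB' u), G.act_one, Sf_zero G.qs]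
  · classical
    unfold Sg
    rw [dif_neg (fun h => hu h.1)]

theorem Sg_add {u w w' : V} (hu : Q u = 0) (h : B u w = 0) (h' : B u w' = 0) :
    G.Sg u w * G.Sg u w' = G.Sg u (w + w') := by
  apply G.ext
  intro v
  rw [G.act_mul, G.Sg_apply hu h, G.Sg_apply hu h', G.Sg_apply hu (by rw [G.qs.addB', h, h', add_zero]),
    Sf_add G.qs hu h h']

theorem Sg_conj (g : O) {u w : V} (hu : Q u = 0) (h : B u w = 0) :
    g * G.Sg u w * g⁻¹ = G.Sg (G.act g u) (G.act g w) := by
  apply G.ext
  intro v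
  have hu' : Q (G.act g u) = 0 := by rw [G.Q_act, hu]
  have h' : B (G.act g u) (G.act g w) = 0 := by rw [G.B_act, h]
  rw [G.act_mul, G.act_mul, G.Sg_apply hu h, G.Sg_apply hu' h']
  unfold Sf
  have key : ∀ x, B (G.act g⁻¹ v) x = B v (G.act g x) := by
    intro x
    rw [← G.B_act g (G.act g⁻¹ v) x, G.act_act_inv]
  rw [map_sub, map_add, G.act_act_inv, map_smul, map_smul, key, key, G.Q_act]

theorem Sg_scale {c : F} (u w : V) (hc : c ≠ 0) : G.Sg (c • u) w = G.Sg u (c • w) := by
  by_cases h : Q u = 0 ∧ B u w = 0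
  · apply G.ext
    intro v
    have hu' : Q (c • u) = 0 := by rw [G.qs.smulQ, h.1, mul_zero]
    have h' : B (c • u) w = 0 := by rw [G.qs.smulB, h.2, mul_zero]
    have h'' : B u (c • w) = 0 := by rw [G.qs.smulB', h.2, mul_zero]
    rw [G.Sg_apply hu' h', G.Sg_apply h.1 h'', Sf_scale G.qs]
  · classical
    unfold Sg
    rw [dif_neg, dif_neg]
    · intro h1
      apply h
      refine ⟨h1.1, ?_⟩
      have := h1.2
      rw [G.qs.smulB', mul_eq_zero] at this
      exact this.resolve_left hc
    · intro h1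
      apply h
      have h2 := h1.1
      have h3 := h1.2
      rw [G.qs.smulQ, mul_eq_zero, mul_eq_zero] at h2
      rw [G.qs.smulB, mul_eq_zero] at h3
      exact ⟨by tauto, by tauto⟩

theorem Sg_swap {x y : V} (hx : Q x = 0) (hy : Q y = 0) (h : B x y = 0) (c : F) :
    G.Sg x (c • y) = G.Sg y ((-c) • x) := by
  apply G.ext
  intro v
  rw [G.Sg_apply hx (by rw [G.qs.smulB', h, mul_zero]),
    G.Sg_apply hy (by rw [G.qs.smulB', G.qs.symm, h, mul_zero]), Sf_swap G.qs hx hy h]

theorem Sg_inv {u w : V} (hu : Q u = 0) (h : B u w = 0) : (G.Sg u w)⁻¹ = G.Sg u (-w) := by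
  rw [inv_eq_iff_mul_eq_one, G.Sg_add hu h (by rw [G.qs.negB', h, neg_zero]), add_neg_cancel, G.Sg_zero]

end OGp

end Cfsg.Agent.Lib.Chev.Om
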